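import Cfsg.Prelude.Def_Sporadic_a
import Cfsg.Agent.Lib.Steiner.Even

/-! A self-orthogonal binary code of length 24, dimension 12 and minimum weight at least 8. -/
set_option autoImplicit false
set_option linter.all false

namespace CfsgLib.AbstractGolay

open Cfsg
open scoped symmDiff

/-- the word of a set -/
def ind (s : Finset (Fin 24)) : Fin 24 → ZMod 2 := fun i => if i ∈ s then 1 else 0

theorem z2 (a : ZMod 2) : a = 0 ∨ a = 1 := by revert a; decide

theorem support_ind (s : Finset (Fin 24)) : support₂ (ind s) = s := by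
  ext i; by_cases h : i ∈ s <;> simp [support₂, ind, h]

theorem ind_support (w : Fin 24 → ZMod 2) : ind (support₂ w) = w := by
  funext i
  rcases z2 (w i) with h | h <;> simp [support₂, ind, h]

theorem ind_inj {s t : Finset (Fin 24)} (h : ind s = ind t) : s = t := by
  rw [← support_ind s, h, support_ind]

theorem ind_sub (s t : Finset (Fin 24)) : ind s - ind t = ind (s ∆ t) := by
  funext i
  by_cases h : i ∈ s <;> by_cases h' : i ∈ t <;>
    simp [ind, h, h', Finset.mem_symmDiff]

theorem ind_add (s t : Finset (Fin 24)) : ind s + ind t = ind (s ∆ t) := by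
  funext i
  by_cases h : i ∈ s <;> by_cases h' : i ∈ t <;>
    simp [ind, h, h', Finset.mem_symmDiff, show (1 : ZMod 2) + 1 = 0 from rfl]

theorem norm_eq (w : Fin 24 → ZMod 2) : hammingNorm w = (support₂ w).card := rfl

theorem norm_ind (s : Finset (Fin 24)) : hammingNorm (ind s) = s.card := by
  rw [norm_eq, support_ind]

theorem card_symm (s t : Finset (Fin 24)) : (s ∆ t).card + 2 * (s ∩ t).card = s.card + t.card := by
  have h1 : s ∆ t = (s ∪ t) \ (s ∩ t) := symmDiff_eq_sup_sdiff_inf s t
  have h2 := Finset.card_union_add_card_inter s t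
  rw [h1, Finset.card_sdiff_of_subset (Finset.inter_subset_union)]
  have := Finset.card_le_card (Finset.inter_subset_union (s := s) (t := t))
  omega

theorem dot_ind (s t : Finset (Fin 24)) : ∑ i, ind s i * ind t i = ((s ∩ t).card : ZMod 2) := by
  simp only [ind, ite_mul, one_mul, zero_mul, ← ite_and]
  rw [Finset.sum_boole]
  congr 2
  ext i; simp

variable (C : Submodule (ZMod 2) (Fin 24 → ZMod 2))

/-- the three hypotheses -/
structure IsGolay : Prop where
  dim : Module.finrank (ZMod 2) C = 12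
  orth : ∀ v ∈ C, ∀ w ∈ C, ∑ i, v i * w i = 0
  min : ∀ w ∈ C, w ≠ 0 → 8 ≤ hammingNorm w

variable {C}

theorem even_inter (hC : IsGolay C) {s t : Finset (Fin 24)} (hs : ind s ∈ C) (ht : ind t ∈ C) :
    Even (s ∩ t).card := by
  have h := hC.orth _ hs _ ht
  rw [dot_ind, ZMod.natCast_eq_zero_iff] at h
  exact even_iff_two_dvd.2 h

theorem far (hC : IsGolay C) {s t : Finset (Fin 24)}
    (h : Submodule.Quotient.mk (p := C) (ind s) = Submodule.Quotient.mk (ind t)) (hne : s ≠ t) :
    8 ≤ (s ∆ t).card := by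
  rw [Submodule.Quotient.eq, ind_sub] at h
  refine norm_ind _ ▸ hC.min _ h fun e => hne ?_
  have := congrArg support₂ e
  rw [support_ind, show support₂ (0 : Fin 24 → ZMod 2) = ∅ by simp [support₂]] at this
  exact symmDiff_eq_bot.1 this

theorem card_quot (hC : IsGolay C) : Nat.card ((Fin 24 → ZMod 2) ⧸ C) = 4096 := by
  rw [Module.natCard_eq_pow_finrank (K := ZMod 2), Nat.card_zmod]
  have h := Submodule.finrank_quotient_add_finrank C
  rw [hC.dim, Module.finrank_fin_fun] at h
  rw [show Module.finrank (ZMod 2) ((Fin 24 → ZMod 2) ⧸ C) = 12 by omega]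
  norm_num

/-- the two kinds of classes -/
theorem classes (hC : IsGolay C) (q : (Fin 24 → ZMod 2) ⧸ C) :
    (∃ u : Finset (Fin 24), u.card ≤ 3 ∧ Submodule.Quotient.mk (ind u) = q) ∨
      ∃ F : Finset (Finset (Fin 24)), F.card = 6 ∧
        (∀ u, u ∈ F ↔ u.card = 4 ∧ Submodule.Quotient.mk (ind u) = q) ∧
        (∀ u ∈ F, ∀ v ∈ F, u ≠ v → Disjoint u v) ∧ ∀ x, ∃ u ∈ F, x ∈ u := by
  classical
  let π : Finset (Fin 24) → (Fin 24 → ZMod 2) ⧸ C := fun s => Submodule.Quotient.mk (ind s)
  let small : Finset (Finset (Fin 24)) := ((Finset.range 4).biUnion fun k => (Finset.univ : Finset (Fin 24)).powersetCard k)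
  let four : Finset (Finset (Fin 24)) := (Finset.univ : Finset (Fin 24)).powersetCard 4
  have hsmall : ∀ {u}, u ∈ small ↔ u.card ≤ 3 := by
    intro u; simp [small, Finset.mem_powersetCard]; omega
  have hfour : ∀ {u}, u ∈ four ↔ u.card = 4 := by intro u; simp [four]
  have cardsmall : small.card = 2325 := by
    rw [Finset.card_biUnion]
    · simp only [Finset.card_powersetCard, Finset.card_univ, Fintype.card_fin, Finset.sum_range_succ,
        Finset.sum_range_zero]
      rfl
    · intro i _ j _ hij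
      simp only [Function.onFun, Finset.disjoint_left, Finset.mem_powersetCard]
      rintro a ⟨-, rfl⟩ ⟨-, h⟩
      exact hij h
  have cardfour : four.card = 10626 := by
    rw [Finset.card_powersetCard, Finset.card_univ, Fintype.card_fin]; rfl
  have inj : Set.InjOn π small := by
    intro s hs t ht e
    by_contra hne
    have h1 := far hC e hne
    have h2 := card_symm s t
    have h3 := hsmall.1 hs
    have h4 := hsmall.1 ht
    omega
  let F : (Fin 24 → ZMod 2) ⧸ C → Finset (Finset (Fin 24)) := fun r => four.filter fun u => π u = r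
  have hdisj : ∀ r, ∀ u ∈ F r, ∀ v ∈ F r, u ≠ v → Disjoint u v := by
    intro r u hu v hv hne
    simp only [F, Finset.mem_filter, hfour] at hu hv
    have h1 := far hC (hu.2.trans hv.2.symm) hne
    have h2 := card_symm u v
    rw [Finset.disjoint_iff_inter_eq_empty, ← Finset.card_eq_zero]
    omega
  have hle : ∀ r, (F r).card ≤ 6 ∧ ((F r).card = 6 → ∀ x, ∃ u ∈ F r, x ∈ u) := by
    intro r
    have hc : ((F r).biUnion id).card = (F r).card * 4 := by
      rw [Finset.card_biUnion (t := id) fun u hu v hv hne => hdisj r u hu v hv hne]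
      exact Finset.sum_const_nat fun u hu => hfour.1 (Finset.mem_filter.1 hu).1
    constructor
    · have := Finset.card_le_univ ((F r).biUnion id)
      rw [hc, Fintype.card_fin] at this
      omega
    · intro h6 x
      have : (F r).biUnion id = Finset.univ := Finset.eq_univ_of_card _ (by rw [hc, h6, Fintype.card_fin])
      simpa using (this ▸ Finset.mem_univ x : x ∈ (F r).biUnion id)
  have hdj : Disjoint (small.image π) (four.image π) := by
    rw [Finset.disjoint_left]
    intro r hr hr'
    obtain ⟨s, hs, rfl⟩ := Finset.mem_image.1 hr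
    obtain ⟨t, ht, e⟩ := Finset.mem_image.1 hr'
    have h3 := hsmall.1 hs
    have h4 := hfour.1 ht
    have h1 := far hC e fun e' => by rw [e'] at h4; omega
    have h2 := card_symm t s
    omega
  haveI : Fintype ((Fin 24 → ZMod 2) ⧸ C) := Fintype.ofFinite _
  have htot := Finset.card_le_univ (small.image π ∪ four.image π)
  rw [Finset.card_union_of_disjoint hdj, Finset.card_image_of_injOn inj, cardsmall,
    ← Nat.card_eq_fintype_card, card_quot hC] at htot
  have hsum : four.card = ∑ r ∈ four.image π, (F r).card :=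
    Finset.card_eq_sum_card_image π four
  have hub : ∑ r ∈ four.image π, (F r).card ≤ ∑ r ∈ four.image π, 6 :=
    Finset.sum_le_sum fun r _ => (hle r).1
  have h1771 : (four.image π).card = 1771 := by
    rw [Finset.sum_const, smul_eq_mul] at hub
    omega
  have hsix : ∀ r ∈ four.image π, (F r).card = 6 := by
    refine (Finset.sum_eq_sum_iff_of_le fun r _ => (hle r).1).1 ?_
    rw [← hsum, Finset.sum_const, smul_eq_mul, cardfour, h1771]
  have hall : small.image π ∪ four.image π = Finset.univ := Finset.eq_univ_of_card _ (by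
    rw [Finset.card_union_of_disjoint hdj, Finset.card_image_of_injOn inj, cardsmall, h1771,
      ← Nat.card_eq_fintype_card, card_quot hC])
  rcases Finset.mem_union.1 (hall ▸ Finset.mem_univ q) with h | h
  · obtain ⟨u, hu, e⟩ := Finset.mem_image.1 h
    exact Or.inl ⟨u, hsmall.1 hu, e⟩
  · exact Or.inr ⟨F q, hsix q h, fun u => by simp [F, hfour, π], hdisj q, (hle q).2 (hsix q h)⟩

theorem steiner (hC : IsGolay C) :
    IsSteinerSystem 5 8 (wordsOfWeight (C : Set (Fin 24 → ZMod 2)) 8) := by
  classical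
  have hmem : ∀ b, b ∈ wordsOfWeight (C : Set (Fin 24 → ZMod 2)) 8 ↔ ind b ∈ C ∧ b.card = 8 := by
    intro b
    constructor
    · rintro ⟨⟨w, hw, rfl⟩, h⟩; exact ⟨by rwa [ind_support], h⟩
    · rintro ⟨h, h'⟩; exact ⟨⟨ind b, h, support_ind b⟩, h'⟩
  refine ⟨fun b hb => hb.2, fun T hT => ?_⟩
  obtain ⟨b, hb, hb8, hTb⟩ : ∃ b, ind b ∈ C ∧ b.card = 8 ∧ T ⊆ b := by
    rcases classes hC (Submodule.Quotient.mk (ind T)) with ⟨u, hu, e⟩ | ⟨F, -, hF, -, hcov⟩
    · have h1 := far hC e.symm fun e' => by rw [← e'] at hu; omega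
      have h2 := card_symm T u
      have hd : Disjoint T u := by
        rw [Finset.disjoint_iff_inter_eq_empty, ← Finset.card_eq_zero]; omega
      refine ⟨T ∆ u, ?_, by omega, fun x hx => Finset.mem_symmDiff.2 (Or.inl ⟨hx, Finset.disjoint_left.1 hd hx⟩)⟩
      rw [← ind_sub]
      exact (Submodule.Quotient.eq C).1 e.symm
    · exfalso
      obtain ⟨x, hx⟩ := Finset.card_pos.1 (show 0 < T.card by omega)
      obtain ⟨u, hu, hxu⟩ := hcov x
      obtain ⟨hu4, e⟩ := (hF u).1 hu
      have h1 := far hC e.symm fun e' => by rw [← e'] at hu4; omega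
      have h2 := card_symm T u
      have h3 : 0 < (T ∩ u).card := Finset.card_pos.2 ⟨x, Finset.mem_inter.2 ⟨hx, hxu⟩⟩
      omega
  refine ⟨b, ⟨(hmem b).2 ⟨hb, hb8⟩, hTb⟩, ?_⟩
  rintro c ⟨hc, hTc⟩
  obtain ⟨hcC, hc8⟩ := (hmem c).1 hc
  by_contra hne
  have h1 := far hC ((Submodule.Quotient.eq C).2 (C.sub_mem hcC hb)) hne
  have h2 := card_symm c b
  have h3 : 5 ≤ (c ∩ b).card := hT ▸ Finset.card_le_card (Finset.subset_inter hTc hTb)
  omega

theorem exists_eight (hC : IsGolay C) : ∃ w ∈ C, hammingNorm w = 8 := by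
  obtain ⟨T, -, hT⟩ := Finset.exists_subset_card_eq (show 5 ≤ (Finset.univ : Finset (Fin 24)).card by simp)
  obtain ⟨b, ⟨⟨⟨w, hw, rfl⟩, h8⟩, -⟩, -⟩ := (steiner hC).2 T hT
  exact ⟨w, hw, h8⟩

/-- the span of the weight eight words -/
def octSpan (C : Submodule (ZMod 2) (Fin 24 → ZMod 2)) : Submodule (ZMod 2) (Fin 24 → ZMod 2) :=
  Submodule.span (ZMod 2) {w | w ∈ C ∧ hammingNorm w = 8}

theorem perp_le (hC : IsGolay C) (v : Fin 24 → ZMod 2)
    (hv : ∀ w ∈ C, hammingNorm w = 8 → ∑ i, v i * w i = 0) : v ∈ C := by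
  classical
  obtain ⟨u, hu4, e⟩ : ∃ u : Finset (Fin 24), u.card ≤ 4 ∧
      Submodule.Quotient.mk (p := C) (ind u) = Submodule.Quotient.mk v := by
    rcases classes hC (Submodule.Quotient.mk v) with ⟨u, hu, e⟩ | ⟨F, hF6, hF, -, -⟩
    · exact ⟨u, by omega, e⟩
    · obtain ⟨u, hu⟩ := Finset.card_pos.1 (show 0 < F.card by omega)
      exact ⟨u, ((hF u).1 hu).1.le, ((hF u).1 hu).2⟩
  rw [Submodule.Quotient.eq] at e
  rcases u.eq_empty_or_nonempty with rfl | hne
  · rw [show ind (∅ : Finset (Fin 24)) = 0 from funext fun i => by simp [ind], zero_sub] at e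
    simpa using C.neg_mem e
  · exfalso
    obtain ⟨b, ⟨⟨w, hw, rfl⟩, h8⟩, hodd⟩ := SteinerEven.odd_meet (steiner hC) (by simp) hne hu4
    have h1 := hC.orth _ e _ hw
    simp only [Pi.sub_apply, sub_mul, Finset.sum_sub_distrib, hv w hw h8, sub_zero] at h1
    rw [← ind_support w, dot_ind, ZMod.natCast_eq_zero_iff, Finset.inter_comm] at h1
    exact Nat.not_even_iff_odd.2 hodd (even_iff_two_dvd.2 h1)

set_option maxHeartbeats 400000 in
theorem span_eight (hC : IsGolay C) : octSpan C = C := by
  classical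
  have hle : octSpan C ≤ C := Submodule.span_le.2 fun w hw => hw.1
  obtain ⟨e, he⟩ : ∃ e : (Fin 24 → ZMod 2) ≃ₗ[ZMod 2] Module.Dual (ZMod 2) (Fin 24 → ZMod 2),
      ∀ v w, e v w = ∑ i, v i * w i := ⟨dotProductEquiv (ZMod 2) (Fin 24), fun v w => rfl⟩
  have hann : (octSpan C).dualAnnihilator ≤ C.map e.toLinearMap := by
    intro φ hφ
    rw [Submodule.mem_dualAnnihilator] at hφ
    obtain ⟨v, rfl⟩ := e.surjective φ
    exact Submodule.mem_map_of_mem
      (perp_le hC v fun w hw h8 => by rw [← he]; exact hφ w (Submodule.subset_span ⟨hw, h8⟩))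
  have h1 := (Submodule.finrank_mono hann).trans (Submodule.finrank_map_le _ C)
  have h2 := Subspace.finrank_add_finrank_dualAnnihilator_eq (octSpan C)
  rw [Module.finrank_fin_fun] at h2
  have h3 := hC.dim
  exact Submodule.eq_of_le_of_finrank_le hle (by omega)

theorem doubly_even (hC : IsGolay C) : ∀ w ∈ C, 4 ∣ hammingNorm w := by
  intro w hw
  rw [← span_eight hC] at hw
  induction hw using Submodule.span_induction with
  | mem x hx => rw [hx.2]; norm_num
  | zero => simp
  | add x y hx hy h1 h2 =>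
    have hx' : x ∈ C := span_eight hC ▸ hx
    have hy' : y ∈ C := span_eight hC ▸ hy
    rw [norm_eq] at h1 h2 ⊢
    rw [← ind_support x, ← ind_support y, ind_add, support_ind]
    have h3 := card_symm (support₂ x) (support₂ y)
    obtain ⟨k, hk⟩ := even_inter hC (s := support₂ x) (t := support₂ y)
      (by rwa [ind_support]) (by rwa [ind_support])
    omega
  | smul a x _ h =>
    rcases z2 a with rfl | rfl
    · simp
    · simpa using h

end CfsgLib.AbstractGolay
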