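import Cfsg.Agent.Lib.Golay.Search

/-! Enumeration of the elements of `M24` with prescribed candidate images of the base points. -/
set_option autoImplicit false
set_option linter.all false
set_option maxRecDepth 8000

namespace CfsgLib.Golay.Search

open Cfsg CfsgLib.Golay CfsgLib.Golay.TwoFusion
open scoped Pointwise

/-- backtracking, the image of the `k`-th base point being allowed by `ok k` -/
noncomputable def srchP (ok : ℕ → ℕ → Bool) : ℕ → ℕ → ℕ → List ℕ
  | 0, _, q => [q]
  | j + 1, k, q => ((tr k).filter fun p => ok k (img q (img p (base.getD k 0)))).flatMap fun p =>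
      srchP ok j (k + 1) (comp q p)

theorem srchP_spec (ok : ℕ → ℕ → Bool) : ∀ (j k q : ℕ), k + j = 7 → okPerm q = true →
    ∀ r ∈ srchP ok j k q, okPerm r = true ∧ ∃ h ∈ fixB k, toPerm r = toPerm q * h
  | 0, k, q, hk, hq, r, hr => by
    simp only [srchP, List.mem_singleton] at hr
    subst hr
    exact ⟨hq, 1, one_mem _, (mul_one _).symm⟩
  | j + 1, k, q, hk, hq, r, hr => by
    simp only [srchP, List.mem_flatMap, List.mem_filter] at hr
    obtain ⟨p, ⟨hp, -⟩, hr⟩ := hr
    have hpo := tr_ok (by omega) hp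
    have hc := okPerm_comp hq hpo
    obtain ⟨h1, h, hh, e⟩ := srchP_spec ok j (k + 1) _ (by omega) hc r hr
    refine ⟨h1, toPerm p * h, mul_mem (toPerm_tr_mem (by omega) hp) (fixB_succ hh), ?_⟩
    rw [e, comp_spec hq hpo hc, mul_assoc]

theorem srchP_nodup (ok : ℕ → ℕ → Bool) : ∀ (j k q : ℕ), k + j = 7 → okPerm q = true →
    ((srchP ok j k q).map toPerm).Nodup
  | 0, k, q, hk, hq => by simp [srchP]
  | j + 1, k, q, hk, hq => by
    have hnd := List.all_eq_true.1 tr_nodup k (List.mem_range.2 (by omega))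
    rw [decide_eq_true_eq] at hnd
    simp only [srchP, List.map_flatMap]
    rw [List.nodup_flatMap]
    refine ⟨fun p hp => ?_, ?_⟩
    · exact srchP_nodup ok j (k + 1) _ (by omega)
        (okPerm_comp hq (tr_ok (by omega) (List.mem_filter.1 hp).1))
    · refine List.Pairwise.imp_of_mem ?_ ((List.Nodup.of_map _ hnd).filter _)
      intro p p' hp hp' hne g hg hg'
      rw [List.mem_map] at hg hg'
      obtain ⟨r, hr, rfl⟩ := hg
      obtain ⟨r', hr', he⟩ := hg'
      have hp0 := (List.mem_filter.1 hp).1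
      have hp0' := (List.mem_filter.1 hp').1
      have hpo := tr_ok (show k < 7 by omega) hp0
      have hpo' := tr_ok (show k < 7 by omega) hp0'
      have hc := okPerm_comp hq hpo
      have hc' := okPerm_comp hq hpo'
      obtain ⟨-, h, hh, e⟩ := srchP_spec ok j (k + 1) _ (by omega) hc r hr
      obtain ⟨-, h', hh', e'⟩ := srchP_spec ok j (k + 1) _ (by omega) hc' r' hr'
      rw [e, e', comp_spec hq hpo hc, comp_spec hq hpo' hc', mul_assoc, mul_assoc] at he
      have := congrArg (fun g : Equiv.Perm GolayPt => idx (g (bp k))) (mul_left_cancel he)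
      simp only [Equiv.Perm.mul_apply, hh.2 k (Nat.lt_succ_self k), hh'.2 k (Nat.lt_succ_self k),
        idx_toPerm hpo, idx_toPerm hpo'] at this
      rw [bp, idx_pt (base_lt k (by omega))] at this
      exact hne (List.inj_on_of_nodup_map hnd hp0 hp0' this.symm)

theorem srchP_complete (ok : ℕ → ℕ → Bool) {g : Equiv.Perm GolayPt} :
    ∀ (j k q : ℕ), k + j = 7 → okPerm q = true → (toPerm q)⁻¹ * g ∈ fixB k →
      (∀ i, k ≤ i → i < 7 → ok i (idx (g (bp i))) = true) →
      ∃ r ∈ srchP ok j k q, toPerm r = g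
  | 0, k, q, hk, hq, hm, hok => by
    obtain rfl : k = 7 := by omega
    exact ⟨q, by simp [srchP], inv_mul_eq_one.1 (fixB_seven hm)⟩
  | j + 1, k, q, hk, hq, hm, hok => by
    have hk7 : k < 7 := by omega
    obtain ⟨p, hp, ep⟩ := exists_tr hk7 (apply_bp_mem_allow hk7 hm)
    have hpo := tr_ok hk7 hp
    have hb : idx (bp k) = base.getD k 0 := idx_pt (base_lt k hk7)
    have hv : img q (img p (base.getD k 0)) = idx (g (bp k)) := by
      rw [← hb, ← idx_toPerm hpo, ← idx_toPerm hq, ep, Equiv.Perm.mul_apply,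
        Equiv.Perm.inv_def, Equiv.apply_symm_apply]
    have hc := okPerm_comp hq hpo
    have hm' : (toPerm (comp q p))⁻¹ * g ∈ fixB (k + 1) := by
      have h2 := mul_mem (inv_mem (toPerm_tr_mem hk7 hp)) hm
      rw [comp_spec hq hpo hc, mul_inv_rev, mul_assoc]
      refine ⟨h2.1, fun i hi => ?_⟩
      rcases Nat.lt_succ_iff_lt_or_eq.1 hi with h' | h'
      · exact h2.2 i h'
      · subst h'
        rw [Equiv.Perm.mul_apply, Equiv.Perm.inv_eq_iff_eq, ep]
    obtain ⟨r, hr, er⟩ := srchP_complete ok j (k + 1) (comp q p) (by omega) hc hm'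
      fun i h1 h2 => hok i (by omega) h2
    refine ⟨r, ?_, er⟩
    simp only [srchP, List.mem_flatMap, List.mem_filter]
    exact ⟨p, ⟨hp, by rw [hv]; exact hok k le_rfl hk7⟩, hr⟩

/-- all elements with allowed images, filtered -/
noncomputable def elems (ok : ℕ → ℕ → Bool) (P : ℕ → Bool) : List ℕ :=
  (srchP ok 7 0 idp).filter P

theorem elems_spec {ok : ℕ → ℕ → Bool} {P : ℕ → Bool} {r : ℕ} (hr : r ∈ elems ok P) :
    okPerm r = true ∧ toPerm r ∈ M24 ∧ P r = true := by
  rw [elems, List.mem_filter] at hr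
  obtain ⟨h1, h, hh, e⟩ := srchP_spec ok 7 0 idp rfl okPerm_idp r hr.1
  rw [toPerm_idp, one_mul] at e
  exact ⟨h1, e ▸ hh.1, hr.2⟩

theorem card_elems {ok : ℕ → ℕ → Bool} {P : ℕ → Bool} {C : Equiv.Perm GolayPt → Prop}
    (hok : ∀ g ∈ M24, C g → ∀ i < 7, ok i (idx (g (bp i))) = true)
    (hP : ∀ r, okPerm r = true → toPerm r ∈ M24 → (P r = true ↔ C (toPerm r))) :
    (∀ g, (∃ r ∈ elems ok P, toPerm r = g) ↔ g ∈ M24 ∧ C g) ∧
      Nat.card {g : Equiv.Perm GolayPt // g ∈ M24 ∧ C g} = (elems ok P).length := by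
  classical
  have hiff : ∀ g, (∃ r ∈ elems ok P, toPerm r = g) ↔ g ∈ M24 ∧ C g := by
    intro g
    constructor
    · rintro ⟨r, hr, rfl⟩
      obtain ⟨h1, h2, h3⟩ := elems_spec hr
      exact ⟨h2, (hP r h1 h2).1 h3⟩
    · rintro ⟨hg, hC⟩
      obtain ⟨r, hr, er⟩ := srchP_complete ok (g := g) 7 0 idp rfl okPerm_idp
        (by rw [toPerm_idp, inv_one, one_mul, fixB_zero]; exact hg) fun i _ hi => hok g hg hC i hi
      have ho := (srchP_spec ok 7 0 idp rfl okPerm_idp r hr).1
      exact ⟨r, List.mem_filter.2 ⟨hr, (hP r ho (er ▸ hg)).2 (er ▸ hC)⟩, er⟩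
  refine ⟨hiff, ?_⟩
  have hnd : ((elems ok P).map toPerm).Nodup :=
    (srchP_nodup ok 7 0 idp rfl okPerm_idp).sublist (List.filter_sublist.map _)
  rw [← List.length_map (as := elems ok P) toPerm, ← List.toFinset_card_of_nodup hnd,
    ← Nat.card_eq_finsetCard]
  refine Nat.card_congr (Equiv.subtypeEquivRight fun g => ?_)
  rw [List.mem_toFinset, List.mem_map]
  exact (hiff g).symm

end CfsgLib.Golay.Search
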