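import Cfsg.Agent.Lib.Golay.Classes

/-! Centralisers of small elements, the normaliser of order seven, six-element sets. -/
set_option autoImplicit false
set_option linter.all false
set_option maxRecDepth 100000

namespace CfsgLib.Golay.Classes

open Cfsg CfsgLib.Golay CfsgLib.Golay.TwoFusion CfsgLib.Golay.Search
open scoped Pointwise

theorem cent_card_conj {g a h : Equiv.Perm GolayPt} (ha : a ∈ M24) (e : a * g * a⁻¹ = h) :
    Nat.card {c : Equiv.Perm GolayPt // c ∈ M24 ∧ c * g = g * c} =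
      Nat.card {c : Equiv.Perm GolayPt // c ∈ M24 ∧ c * h = h * c} :=
  Nat.card_congr <| (MulAut.conj a).toEquiv.subtypeEquiv fun c => by
    subst e
    show c ∈ M24 ∧ c * g = g * c ↔
      a * c * a⁻¹ ∈ M24 ∧ a * c * a⁻¹ * (a * g * a⁻¹) = a * g * a⁻¹ * (a * c * a⁻¹)
    rw [show a * c * a⁻¹ * (a * g * a⁻¹) = a * (c * g) * a⁻¹ by group,
      show a * g * a⁻¹ * (a * c * a⁻¹) = a * (g * c) * a⁻¹ by group, mul_left_inj, mul_right_inj]
    refine and_congr_left' ⟨fun hc => mul_mem (mul_mem ha hc) (inv_mem ha), fun hc => ?_⟩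
    have := mul_mem (mul_mem (inv_mem ha) hc) ha
    rwa [show a⁻¹ * (a * c * a⁻¹) * a = c by group] at this

/-- an orbit as a mask, from a list -/
def orbAt (L : List ℕ) (i : ℕ) : ℕ := mOrb L i

/-- centralisers of a permutation fixing the last point -/
noncomputable def sols1 (x : ℕ) : List ℕ := (srch x x 6 1 idp [23]).filter fun q => conjB q x x

theorem mem_sols1 {x : ℕ} (hx : okPerm x = true) (g : Equiv.Perm GolayPt) :
    (∃ q ∈ sols1 x, toPerm q = g) ↔ g ∈ M24 ∧ g * toPerm x = toPerm x * g ∧ g none = none := by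
  constructor
  · rintro ⟨q, hq, rfl⟩
    rw [sols1, List.mem_filter] at hq
    obtain ⟨h1, h, hh, e⟩ := srch_spec x x 6 1 idp [23] rfl okPerm_idp q hq.1
    rw [toPerm_idp, one_mul] at e
    refine ⟨e ▸ hh.1, (conjB_iff h1 hx hx).1 hq.2, ?_⟩
    rw [e, show (none : GolayPt) = bp 0 by decide +kernel]
    exact hh.2 0 Nat.one_pos
  · rintro ⟨hg, e, h0⟩
    have hb : bp 0 = (none : GolayPt) := by decide +kernel
    have hm : (toPerm idp)⁻¹ * g ∈ fixB 1 := by
      rw [toPerm_idp, inv_one, one_mul]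
      exact ⟨hg, fun i hi => by obtain rfl : i = 0 := (by omega); rw [hb, h0]⟩
    obtain ⟨r, hr, er⟩ := srch_complete x x hx hx hg e 6 1 idp rfl okPerm_idp hm
    have hl : (List.range 1).map (fun i => idx (g (bp i))) = [23] := by
      rw [show List.range 1 = [0] from rfl, List.map_singleton, hb, h0]; rfl
    rw [hl] at hr
    exact ⟨r, List.mem_filter.2 ⟨hr, (conjB_iff (srch_spec x x 6 1 idp _ rfl okPerm_idp r hr).1 hx hx).2
      (er ▸ e)⟩, er⟩

/-- keeps the standard sextet -/
def keepB (q : ℕ) : Bool := sameSys (sex0.map (pmask q)) sex0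

theorem t0_check : (sols1 t0).length = 320 ∧ (sols1 t0).all keepB = true ∧ keepB t0 = true ∧
    (t0reps.all fun q => inM24 q && conjB q t0 t0 && keepB q) = true ∧
    ((List.range 24).all fun i => t0reps.any fun q => img q 23 == i) = true := by
  decide +kernel

theorem keep_of {q : ℕ} (hq : okPerm q = true) (h : keepB q = true) :
    toPerm q • Sys sex0 = Sys sex0 := by rw [smul_Sys hq, Sys_eq_of_same h]

theorem t0_reps (p : GolayPt) : ∃ c ∈ M24, c * toPerm t0 = toPerm t0 * c ∧ c none = p ∧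
    c • Sys sex0 = Sys sex0 := by
  obtain ⟨-, -, -, h3, h4⟩ := t0_check
  simp only [List.all_eq_true, List.mem_range, List.any_eq_true, Bool.and_eq_true, beq_iff_eq] at h3 h4
  obtain ⟨q, hq, e⟩ := h4 (idx p) (idx_lt p)
  obtain ⟨⟨hm, hc⟩, hk⟩ := h3 q hq
  have hok := okPerm_of_inM24 hm
  refine ⟨toPerm q, toPerm_mem_M24 hm, (conjB_iff hok okPerm_t0 okPerm_t0).1 hc, ?_, keep_of hok hk⟩
  rw [← idx_inj, idx_toPerm hok]
  exact e

theorem t0_keep {c : Equiv.Perm GolayPt} (hc : c ∈ M24) (e : c * toPerm t0 = toPerm t0 * c) :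
    c • Sys sex0 = Sys sex0 := by
  obtain ⟨d, hd, ed, hdn, hds⟩ := t0_reps (c none)
  obtain ⟨q, hq, eq⟩ := (mem_sols1 okPerm_t0 (d⁻¹ * c)).2 ⟨mul_mem (inv_mem hd) hc,
    ((show Commute d (toPerm t0) from ed).inv_left.mul_left e).eq,
    by rw [Equiv.Perm.mul_apply, Equiv.Perm.inv_eq_iff_eq, hdn]⟩
  have hqo : okPerm q = true := by
    rw [sols1, List.mem_filter] at hq
    exact (srch_spec _ _ 6 1 idp _ rfl okPerm_idp q hq.1).1
  have hk := keep_of hqo (List.all_eq_true.1 t0_check.2.1 q hq)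
  rw [eq, mul_smul, inv_smul_eq_iff, hds] at hk
  exact hk

theorem card_cent_t0 :
    Nat.card {c : Equiv.Perm GolayPt // c ∈ M24 ∧ c * toPerm t0 = toPerm t0 * c} = 7680 := by
  classical
  choose d hd ed hdn hds using t0_reps
  have h1 : Nat.card {c : Equiv.Perm GolayPt // c ∈ M24 ∧ c * toPerm t0 = toPerm t0 * c ∧ c none = none} =
      320 := by
    have hnd : ((sols1 t0).map toPerm).Nodup :=
      (srch_nodup t0 t0 6 1 idp [23] rfl okPerm_idp).sublist (List.filter_sublist.map _)
    rw [← t0_check.1, ← List.length_map (as := sols1 t0) toPerm, ← List.toFinset_card_of_nodup hnd,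
      ← Nat.card_eq_finsetCard]
    refine Nat.card_congr (Equiv.subtypeEquivRight fun g => ?_)
    rw [List.mem_toFinset, List.mem_map]
    exact (mem_sols1 okPerm_t0 g).symm
  have h2 : Nat.card {c : Equiv.Perm GolayPt // c ∈ M24 ∧ c * toPerm t0 = toPerm t0 * c} =
      Nat.card (GolayPt × {c : Equiv.Perm GolayPt // c ∈ M24 ∧ c * toPerm t0 = toPerm t0 * c ∧ c none = none}) :=
    Nat.card_congr
      { toFun := fun c => (c.1 none, ⟨(d (c.1 none))⁻¹ * c.1, mul_mem (inv_mem (hd _)) c.2.1,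
          ((show Commute (d (c.1 none)) (toPerm t0) from ed _).inv_left.mul_left c.2.2).eq,
          by rw [Equiv.Perm.mul_apply, Equiv.Perm.inv_eq_iff_eq, hdn]⟩)
        invFun := fun z => ⟨d z.1 * z.2.1, mul_mem (hd _) z.2.2.1,
          ((show Commute (d z.1) (toPerm t0) from ed _).mul_left z.2.2.2.1).eq⟩
        left_inv := fun c => Subtype.ext (mul_inv_cancel_left _ _)
        right_inv := by
          rintro ⟨p, c, hc, ec, h0⟩
          have hp : (d p * c) none = p := by rw [Equiv.Perm.mul_apply, h0, hdn]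
          refine Prod.ext hp (Subtype.ext ?_)
          show (d ((d p * c) none))⁻¹ * (d p * c) = c
          rw [hp, inv_mul_cancel_left] }
  rw [h2, Nat.card_prod, h1, Nat.card_eq_fintype_card]
  rfl

/-- fixed points of the involutions in a centraliser -/
noncomputable def chkC (x n : ℕ) : Bool := (sols x x).all fun q => !isTwoB q || (pc (fixMask q) == n)

theorem x_checks : chkC x6 8 = true ∧ chkC x0 0 = true := by decide +kernel

theorem comm_inv_fix {x n : ℕ} (hx : okPerm x = true) (h : chkC x n = true)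
    {s : Equiv.Perm GolayPt} (hs : s ∈ M24) (h2 : orderOf s = 2) (hc : s * toPerm x = toPerm x * s) :
    (Finset.univ.filter fun p => s p = p).card = n := by
  obtain ⟨q, hq, rfl⟩ := (mem_sols hx hx s).2 ⟨hs, hc⟩
  have hqo := (sols_spec hx hx hq).1
  have := List.all_eq_true.1 h q hq
  rw [isTwoB_of hqo h2] at this
  simpa [fix_card hqo] using this

theorem x11_check : inM24 x11 = true ∧ img x11 23 = 23 ∧ img x11 0 = 0 ∧
    (sols x11 x11).all (fun q => img q 23 == 23) = true := by decide +kernel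

/-! ### order seven -/

/-- powers -/
def pwr (s : ℕ) : ℕ → ℕ
  | 0 => idp
  | j + 1 => comp (pwr s j) s

theorem pwr_spec {s : ℕ} (hs : okPerm s = true) :
    ∀ j, okPerm (pwr s j) = true ∧ toPerm (pwr s j) = toPerm s ^ j
  | 0 => ⟨okPerm_idp, by rw [pwr, toPerm_idp, pow_zero]⟩
  | j + 1 => by
    obtain ⟨h1, h2⟩ := pwr_spec hs j
    refine ⟨okPerm_comp h1 hs, ?_⟩
    rw [pwr, comp_spec h1 hs (okPerm_comp h1 hs), h2, pow_succ]

/-- the elements carrying the element of order seven to one of its powers -/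
noncomputable def nl7 : List ℕ := (List.range 6).flatMap fun j => sols s7 (pwr s7 (j + 1))

/-- the trio they keep -/
def trio7 : List ℕ := [8536111, 1903248, 6337856]

theorem s7_check : inM24 s7 = true ∧ isIdB (pwr s7 7) = true ∧ isIdB s7 = false ∧
    isTrioM trio7 = true := by decide +kernel

theorem nl7_check : (nl7.map pkOf).Nodup ∧ nl7.length = 126 ∧ (sols s7 s7).length = 42 ∧
    nl7.all (fun q => sameSys (trio7.map (pmask q)) trio7) = true ∧
    conjB c7a s7 s7 = true ∧ conjB c7b s7 s7 = true ∧ inM24 c7a = true ∧ inM24 c7b = true ∧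
    conjB c7a c7b c7b = false := by decide +kernel

theorem order_s7 : orderOf (toPerm s7) = 7 := by
  haveI : Fact (Nat.Prime 7) := ⟨by norm_num⟩
  have hok := okPerm_of_inM24 s7_check.1
  rw [orderOf_eq_prime_iff, ← (pwr_spec hok 7).2]
  refine ⟨(isIdB_iff (pwr_spec hok 7).1).1 s7_check.2.1, fun e => ?_⟩
  have := s7_check.2.2.1
  rw [(isIdB_iff hok).2 e] at this
  simp at this

/-- the element of order seven inside the group -/
noncomputable def S7 : ↥M24 := ⟨toPerm s7, toPerm_mem_M24 s7_check.1⟩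

theorem card_Z7 : Nat.card ↥(Subgroup.zpowers S7) = 7 := by
  rw [Nat.card_zpowers, ← Subgroup.orderOf_coe]; exact order_s7

theorem mem_Z7_iff (x : ↥M24) : x ∈ Subgroup.zpowers S7 ↔
    ∃ j < 7, (x : Equiv.Perm GolayPt) = toPerm s7 ^ j := by
  rw [← mem_powers_iff_mem_zpowers, mem_powers_iff_mem_range_orderOf, Finset.mem_image]
  simp only [Finset.mem_range, ← Subgroup.orderOf_coe]
  rw [show orderOf ((S7 : ↥M24) : Equiv.Perm GolayPt) = 7 from order_s7]
  exact exists_congr fun j => and_congr_right fun _ => by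
    rw [Subtype.ext_iff, SubgroupClass.coe_pow]; exact eq_comm

theorem mem_normalizer_Z7 (n : ↥M24) :
    n ∈ Subgroup.normalizer ((Subgroup.zpowers S7 : Subgroup ↥M24) : Set ↥M24) ↔
      ∃ q ∈ nl7, toPerm q = (n : Equiv.Perm GolayPt) := by
  haveI : Fact (Nat.Prime 7) := ⟨by norm_num⟩
  have hok := okPerm_of_inM24 s7_check.1
  have h1 : n ∈ Subgroup.normalizer ((Subgroup.zpowers S7 : Subgroup ↥M24) : Set ↥M24) ↔
      n * S7 * n⁻¹ ∈ Subgroup.zpowers S7 := by
    rw [Subgroup.mem_normalizer_iff]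
    refine ⟨fun h => (h S7).1 (Subgroup.mem_zpowers _), fun h x => ?_⟩
    have h2 : (Subgroup.zpowers S7).map (MulAut.conj n).toMonoidHom = Subgroup.zpowers S7 := by
      rw [MonoidHom.map_zpowers]
      refine Subgroup.eq_of_le_of_card_ge ((Subgroup.zpowers_le).2 h) ?_
      rw [card_Z7, Nat.card_zpowers]
      refine le_of_eq ?_
      rw [orderOf_injective _ (MulAut.conj n).injective, ← Nat.card_zpowers, card_Z7]
    constructor
    · intro hx
      rw [← h2]
      exact ⟨x, hx, rfl⟩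
    · intro hx
      rw [← h2] at hx
      obtain ⟨y, hy, e⟩ := hx
      rwa [show x = y from ((MulAut.conj n).injective e).symm]
  rw [h1, mem_Z7_iff]
  simp only [nl7, List.mem_flatMap, List.mem_range]
  constructor
  · rintro ⟨j, hj, e⟩
    replace e : (n : Equiv.Perm GolayPt) * toPerm s7 * (n : Equiv.Perm GolayPt)⁻¹ = toPerm s7 ^ j := e
    have hj0 : j ≠ 0 := fun h => by
      subst h
      rw [pow_zero, mul_inv_eq_one, mul_eq_left] at e
      have := order_s7; rw [e, orderOf_one] at this; omega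
    obtain ⟨q, hq, eq⟩ := (mem_sols hok (pwr_spec hok j).1 (n : Equiv.Perm GolayPt)).2
      ⟨n.2, by rw [(pwr_spec hok j).2, ← e, inv_mul_cancel_right]⟩
    exact ⟨q, ⟨j - 1, by omega, by rwa [Nat.sub_add_cancel (by omega)]⟩, eq⟩
  · rintro ⟨q, ⟨j, hj, hq⟩, e⟩
    obtain ⟨-, e2⟩ := (mem_sols hok (pwr_spec hok (j + 1)).1 (n : Equiv.Perm GolayPt)).1 ⟨q, hq, e⟩
    rw [(pwr_spec hok (j + 1)).2] at e2
    exact ⟨j + 1, by omega, show (n : Equiv.Perm GolayPt) * toPerm s7 * (n : Equiv.Perm GolayPt)⁻¹ = _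
      by rw [e2, mul_inv_cancel_right]⟩

theorem mem_centralizer_Z7 (n : ↥M24) :
    n ∈ Subgroup.centralizer ((Subgroup.zpowers S7 : Subgroup ↥M24) : Set ↥M24) ↔
      (n : Equiv.Perm GolayPt) * toPerm s7 = toPerm s7 * n := by
  rw [Subgroup.mem_centralizer_iff]
  constructor
  · exact fun h => (congrArg Subtype.val (h S7 (Subgroup.mem_zpowers _))).symm
  · intro h y hy
    obtain ⟨k, rfl⟩ := Subgroup.mem_zpowers_iff.1 hy
    exact (Commute.zpow_right (show Commute n S7 from Subtype.ext h) k).eq.symm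

theorem nl7_nodup : (nl7.map toPerm).Nodup := by
  refine nodup_toPerm (fun q hq => ?_) nl7_check.1
  simp only [nl7, List.mem_flatMap] at hq
  obtain ⟨j, -, hq⟩ := hq
  exact (sols_spec (okPerm_of_inM24 s7_check.1) (pwr_spec (okPerm_of_inM24 s7_check.1) (j + 1)).1 hq).1

theorem card_normalizer_Z7 :
    Nat.card ↥(Subgroup.normalizer ((Subgroup.zpowers S7 : Subgroup ↥M24) : Set ↥M24)) = 126 := by
  classical
  rw [← nl7_check.2.1, ← List.length_map (as := nl7) toPerm, ← List.toFinset_card_of_nodup nl7_nodup,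
    ← Nat.card_eq_finsetCard]
  refine Nat.card_congr
    { toFun := fun n => ⟨((n.1 : ↥M24) : Equiv.Perm GolayPt),
        List.mem_toFinset.2 (List.mem_map.2 ((mem_normalizer_Z7 n.1).1 n.2))⟩
      invFun := fun g => ⟨⟨g.1, ?_⟩,
        (mem_normalizer_Z7 _).2 (List.mem_map.1 (List.mem_toFinset.1 g.2))⟩
      left_inv := fun n => rfl
      right_inv := fun g => rfl }
  obtain ⟨q, hq, e⟩ := List.mem_map.1 (List.mem_toFinset.1 g.2)
  simp only [nl7, List.mem_flatMap] at hq
  obtain ⟨j, -, hq⟩ := hq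
  exact e ▸ (sols_spec (okPerm_of_inM24 s7_check.1) (pwr_spec (okPerm_of_inM24 s7_check.1) (j + 1)).1 hq).2.1

theorem card_centralizer_Z7 :
    Nat.card ↥(Subgroup.centralizer ((Subgroup.zpowers S7 : Subgroup ↥M24) : Set ↥M24)) = 42 := by
  have hok := okPerm_of_inM24 s7_check.1
  rw [← nl7_check.2.2.1, ← card_sols hok hok]
  exact Nat.card_congr
    { toFun := fun n => ⟨((n.1 : ↥M24) : Equiv.Perm GolayPt), n.1.2, (mem_centralizer_Z7 n.1).1 n.2⟩
      invFun := fun g => ⟨⟨g.1, g.2.1⟩, (mem_centralizer_Z7 _).2 g.2.2⟩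
      left_inv := fun n => rfl
      right_inv := fun g => rfl }

/-! ### six-element sets -/

/-- the elements fixing the first five base points -/
noncomputable def fix5 : List ℕ := srch idp idp 2 5 idp (base.take 5)

theorem mem_fix5 (g : Equiv.Perm GolayPt) : (∃ q ∈ fix5, toPerm q = g) ↔ g ∈ fixB 5 := by
  constructor
  · rintro ⟨q, hq, rfl⟩
    obtain ⟨-, h, hh, e⟩ := srch_spec idp idp 2 5 idp (base.take 5) rfl okPerm_idp q hq
    rwa [e, toPerm_idp, one_mul]
  · intro hg
    have hl : (List.range 5).map (fun i => idx (g (bp i))) = base.take 5 := by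
      rw [List.map_congr_left (g := fun i => idx (bp i)) fun i hi => by rw [hg.2 i (List.mem_range.1 hi)]]
      decide +kernel
    obtain ⟨r, hr, e⟩ := srch_complete idp idp okPerm_idp okPerm_idp hg.1 (by rw [toPerm_idp, mul_one, one_mul])
      2 5 idp rfl okPerm_idp (by rw [toPerm_idp, inv_one, one_mul]; exact hg)
    exact ⟨r, by rwa [hl] at hr, e⟩

theorem fix5_nodup : (fix5.map toPerm).Nodup := srch_nodup idp idp 2 5 idp _ rfl okPerm_idp

/-- six-set inside an octad -/
def sixO : ℕ := 8388655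
/-- six-set in no octad -/
def sixN : ℕ := 8388639

theorem card_fix_six {m i : ℕ} (hm : (toSet m) = insert (pt i) ((Finset.range 5).image bp)) (hi : i < 24) :
    Nat.card {g : Equiv.Perm GolayPt // g ∈ M24 ∧ ∀ p ∈ toSet m, g p = p} =
      fix5.countP fun q => img q i == i := by
  classical
  have hok : ∀ q ∈ fix5, okPerm q = true := fun q hq =>
    (srch_spec idp idp 2 5 idp _ rfl okPerm_idp q hq).1
  rw [List.countP_eq_length_filter, ← List.length_map (as := fix5.filter _) toPerm,
    ← List.toFinset_card_of_nodup (fix5_nodup.sublist (List.filter_sublist.map _)),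
    ← Nat.card_eq_finsetCard]
  refine Nat.card_congr (Equiv.subtypeEquivRight fun g => ?_)
  rw [List.mem_toFinset, List.mem_map]
  simp only [List.mem_filter, beq_iff_eq, hm, Finset.mem_insert, Finset.mem_image, Finset.mem_range]
  constructor
  · rintro ⟨hg, h⟩
    obtain ⟨q, hq, rfl⟩ := (mem_fix5 g).2 ⟨hg, fun j hj => h _ (Or.inr ⟨j, hj, rfl⟩)⟩
    refine ⟨q, ⟨hq, ?_⟩, rfl⟩
    have := congrArg idx (h (pt i) (Or.inl rfl))
    rwa [idx_toPerm (hok q hq), idx_pt hi] at this
  · rintro ⟨q, ⟨hq, e⟩, rfl⟩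
    obtain ⟨h1, h2⟩ := (mem_fix5 _).1 ⟨q, hq, rfl⟩
    refine ⟨h1, ?_⟩
    rintro p (rfl | ⟨j, hj, rfl⟩)
    · rw [← idx_inj, idx_toPerm (hok q hq), idx_pt hi, e]
    · exact h2 j hj

/-- all exchanges of two of the listed points are realised -/
def chkSwaps (E : List ℕ) (ws : List ℕ) : Bool :=
  ws.all inM24 && E.all fun i => E.all fun j => (i == j) || ws.any fun w =>
    E.all fun k => img w k == (if k == i then j else if k == j then i else k)

theorem six_checks :
    toSet sixO = insert (pt 5) ((Finset.range 5).image bp) ∧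
    toSet sixN = insert (pt 4) ((Finset.range 5).image bp) ∧
    (fix5.countP fun q => img q 5 == 5) = 16 ∧ (fix5.countP fun q => img q 4 == 4) = 3 ∧
    chkSwaps [23, 0, 1, 2, 3, 5] swO = true ∧ chkSwaps [23, 0, 1, 2, 3, 4] swN = true ∧
    (octList.any fun o => o &&& sixO == sixO) = true ∧
    (octList.all fun o => !(o &&& sixN == sixN)) = true := by
  decide +kernel

theorem swaps_perm {l ws : List ℕ} {m : ℕ} (hl : ∀ p, p ∈ toSet m ↔ idx p ∈ l)
    (h : chkSwaps l ws = true) (σ : Equiv.Perm ↥(toSet m)) :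
    ∃ g ∈ M24, ∀ p : ↥(toSet m), g p = σ p := by
  classical
  simp only [chkSwaps, Bool.and_eq_true, List.all_eq_true, Bool.or_eq_true, List.any_eq_true,
    beq_iff_eq] at h
  induction σ using Equiv.Perm.swap_induction_on with
  | one => exact ⟨1, one_mem _, fun p => rfl⟩
  | swap_mul f x y hxy ih =>
    obtain ⟨g, hg, hgf⟩ := ih
    rcases h.2 _ ((hl x.1).1 x.2) _ ((hl y.1).1 y.2) with e | ⟨w, hw, e⟩
    · exact absurd (Subtype.ext (idx_inj.1 e)) hxy
    · have hwo := okPerm_of_inM24 (h.1 w hw)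
      refine ⟨toPerm w * g, mul_mem (toPerm_mem_M24 (h.1 w hw)) hg, fun p => ?_⟩
      rw [Equiv.Perm.mul_apply, hgf, Equiv.Perm.mul_apply]
      set q := f p
      rw [← idx_inj, idx_toPerm hwo, e _ ((hl q.1).1 q.2)]
      by_cases hx : q = x
      · rw [hx, if_pos rfl, Equiv.swap_apply_left]
      · have hx' : idx q.1 ≠ idx x.1 := fun e => hx (Subtype.ext (idx_inj.1 e))
        rw [if_neg hx']
        by_cases hy : q = y
        · rw [hy, if_pos rfl, Equiv.swap_apply_right]
        · rw [if_neg fun e => hy (Subtype.ext (idx_inj.1 e)), Equiv.swap_apply_of_ne_of_ne hx hy]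

theorem six_std {E : Finset GolayPt} (hE : E.card = 6) :
    ∃ g ∈ M24, g • E = toSet sixO ∨ g • E = toSet sixN := by
  classical
  obtain ⟨F, hF, hFc⟩ := Finset.exists_subset_card_eq (show 5 ≤ E.card by omega)
  let x : Fin 5 ↪ GolayPt := (Finset.equivFinOfCardEq hFc).symm.toEmbedding.trans
    (Function.Embedding.subtype _)
  let y : Fin 5 ↪ GolayPt := ⟨fun i => bp i, by decide +kernel⟩
  obtain ⟨g, hg, h⟩ := exists_map_tuple (k := 5) (by norm_num) x y
  have hgF : g • F = (Finset.range 5).image bp := by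
    refine Finset.eq_of_subset_of_card_le ?_ ?_
    · intro z hz
      obtain ⟨w, hw, rfl⟩ := Finset.mem_smul_finset.1 hz
      have hwx : x (Finset.equivFinOfCardEq hFc ⟨w, hw⟩) = w := by simp [x]
      rw [← hwx, Equiv.Perm.smul_def, h]
      exact Finset.mem_image.2 ⟨_, Finset.mem_range.2 (Fin.is_lt _), rfl⟩
    · rw [Finset.card_smul_finset, hFc]
      exact Finset.card_image_le.trans (by simp)
  obtain ⟨z, hz⟩ := Finset.card_eq_one.1 (show (E \ F).card = 1 by
    rw [Finset.card_sdiff_of_subset hF]; omega)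
  have hzE : z ∈ E \ F := by simp [hz]
  rw [Finset.mem_sdiff] at hzE
  have hEeq : E = insert z F := by
    rw [← Finset.sdiff_union_of_subset hF, hz, Finset.insert_eq]
  have hout : g • z ∉ (Finset.range 5).image bp := by
    rw [← hgF, Finset.smul_mem_smul_finset_iff]; exact hzE.2
  have hgE : g • E = insert (g • z) ((Finset.range 5).image bp) := by
    rw [hEeq, Finset.smul_finset_insert, hgF]
  have hcases : g • z ∈ toSet (allow 5) ∨ g • z ∈ toSet (allow 6) := by
    have key : ∀ w : GolayPt, w ∉ (Finset.range 5).image bp →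
        w ∈ toSet (allow 5) ∨ w ∈ toSet (allow 6) := by decide +kernel
    exact key _ hout
  rcases hcases with hw | hw
  · obtain ⟨t, ht, e⟩ := exists_tr (k := 5) (by norm_num) hw
    have hm := toPerm_tr_mem (k := 5) (by norm_num) ht
    refine ⟨(toPerm t)⁻¹ * g, mul_mem (inv_mem hm.1) hg, Or.inl ?_⟩
    rw [mul_smul, hgE, inv_smul_eq_iff, six_checks.1, Finset.smul_finset_insert]
    congr 1
    · exact e.symm
    · symm
      apply Finset.eq_of_subset_of_card_le
      · intro p hp
        obtain ⟨q, hq, rfl⟩ := Finset.mem_smul_finset.1 hp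
        obtain ⟨j, hj, rfl⟩ := Finset.mem_image.1 hq
        rw [Equiv.Perm.smul_def, hm.2 j (Finset.mem_range.1 hj)]
        exact hq
      · rw [Finset.card_smul_finset]
  · obtain ⟨t, ht, e⟩ := exists_tr (k := 6) (by norm_num) hw
    have hm := toPerm_tr_mem (k := 6) (by norm_num) ht
    refine ⟨(toPerm t)⁻¹ * g, mul_mem (inv_mem hm.1) hg, Or.inr ?_⟩
    rw [mul_smul, hgE, inv_smul_eq_iff, six_checks.2.1, Finset.smul_finset_insert]
    congr 1
    · exact e.symm
    · symm
      apply Finset.eq_of_subset_of_card_le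
      · intro p hp
        obtain ⟨q, hq, rfl⟩ := Finset.mem_smul_finset.1 hp
        obtain ⟨j, hj, rfl⟩ := Finset.mem_image.1 hq
        rw [Equiv.Perm.smul_def, hm.2 j (by have := Finset.mem_range.1 hj; omega)]
        exact hq
      · rw [Finset.card_smul_finset]

end CfsgLib.Golay.Classes
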