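import Cfsg.Agent.Lib.Golay.Subsets
import Cfsg.Agent.Lib.Golay.CertP3Sex

/-! Kernel check of `certP3Sex`. -/
set_option autoImplicit false
set_option linter.all false
set_option maxRecDepth 8000

namespace CfsgLib.Golay

theorem certP3Sex_ok : chkOrbits sexKind.E [[8388611]] certP3Sex = true := by decide +kernel

end CfsgLib.Golay
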