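import Cfsg.Agent.Lib.Golay.OctPts
import Cfsg.Agent.Lib.Golay.CertPIoOct

/-! Kernel check of `certPIoOct`. -/
set_option autoImplicit false
set_option linter.all false
set_option maxRecDepth 8000

namespace CfsgLib.Golay

theorem certPIoOct_ok : chkOrbits octKind.E [[8388608], [octO]] certPIoOct = true := by decide +kernel

end CfsgLib.Golay
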