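import Cfsg.Agent.Lib.Golay.Std
import Cfsg.Agent.Lib.Golay.CertPairSex

/-! Kernel check of `certPairSex`. -/
set_option autoImplicit false
set_option linter.all false
set_option maxRecDepth 8000

namespace CfsgLib.Golay

theorem certPairSex_ok : chkOrbits sexKind.E [pair0] certPairSex = true := by decide +kernel

end CfsgLib.Golay
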