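import Cfsg.Agent.Lib.Golay.OctPts
import Cfsg.Agent.Lib.Golay.CertPdDod

/-! Kernel check of `certPdDod`. -/
set_option autoImplicit false
set_option linter.all false
set_option maxRecDepth 8000

namespace CfsgLib.Golay

theorem certPdDod_ok : chkOrbits dodKind.E [[1], [dodD]] certPdDod = true := by decide +kernel

end CfsgLib.Golay
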