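import Cfsg.Agent.Lib.Golay.Std
import Cfsg.Agent.Lib.Golay.CertSexOct

/-! Kernel check of `certSexOct`. -/
set_option autoImplicit false
set_option linter.all false
set_option maxRecDepth 8000

namespace CfsgLib.Golay

theorem certSexOct_ok : chkOrbits octKind.E [sex0] certSexOct = true := by decide +kernel

end CfsgLib.Golay
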