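/-! Transversals on the complementary dodecad (computed offline, checked where used). -/
set_option autoImplicit false
set_option maxRecDepth 8000

namespace CfsgLib.Golay

/-- base in the complementary dodecad -/
def baseC : List Nat := [5, 7, 10]

/-- transversals of the dodecad-and-point stabiliser -/
noncomputable def trsC : List (List Nat) := [
  [984818244535754528103549039458486304, 984352926149379446915429840335254592, 233194089500230198874011785118189120, 651290124283658934727372682327106592, 435163357344340967325406911997020736, 941944935502484396451156685545277824, 422511240734565842005722457090634848, 463845639483766706822186533410587008, 648321739110346641762324489167834176, 855646965706863007070864993539958272, 434511538401940062492848966868179072, 724745762511519165243926822218940672],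
  [984818244535754528103549039458486304, 808032988094098899595515867536887168, 610403613998037979367127925926735936, 726056042783809307627534499896117344, 983553042649537266979977019204733184, 641664110617256351618387150105546848, 969277917667870129153987709871719680, 611699213225806321800410786873746496, 482175276790687761827852732475116800, 425296436757327280799351101126381952, 855899071228620833409909364660516352],
  [984818244535754528103549039458486304, 927460647604857250644322238883645472, 975324830235885707264894193849934112, 434271311026020896944170343679989888, 609636766906207105165638742985410848, 733837159157096044993244994847459744, 430544258669838663854081153609867392, 479626679983258410422958539680189856, 736837720314198190023097926713350176, 601793840099731144023028510498557216]]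

/-- transversal of the stabiliser of three points of the dodecad -/
noncomputable def trsC3 : List (List Nat) := [
  [984818244535754528103549039458486304, 891385682027558266148352467872712736, 849414919297944031155053626894092320, 809399594410595785774724965859756064, 437673696385666828435562741295908896, 970531819526550031117983620406741024, 899189355044933402820830013086107680, 928718206277989008510816407558424608, 313626468097149398198142802389895200, 303972014349329906305369256209090592, 629994123837064240816195434993748000, 232652365823391711183829569059784736]]

end CfsgLib.Golay
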