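import Cfsg.Agent.Lib.Golay.SmallGroups
import Cfsg.Agent.Lib.Golay.ComplData

/-! Dodecad stabilisers acting on the complementary dodecad. -/
set_option autoImplicit false
set_option linter.all false
set_option maxRecDepth 8000

namespace CfsgLib.Golay

open Cfsg
open scoped Pointwise

theorem toSet_complD : toSet (16777215 ^^^ dodD) = (toSet dodD)ᶜ := toSet_compl dodD

theorem S12_maps_compl {g : Equiv.Perm GolayPt} (hg : g ∈ S12) {x : GolayPt}
    (hx : x ∈ toSet (16777215 ^^^ dodD)) : g x ∈ toSet (16777215 ^^^ dodD) := by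
  rw [toSet_complD, Finset.mem_compl] at hx ⊢
  intro h
  have h2 := S12_maps (inv_mem hg) h
  rw [show g⁻¹ (g x) = x from g.symm_apply_apply x] at h2
  exact hx h2

theorem compl_checks :
    chkCover (16777215 ^^^ dodD) [] baseC trsC = true ∧
    trsC.flatten.all (fun p => inM24 p && (pmask p dodD == dodD) && (img p 0 == 0)) = true ∧
    chkCover (16777215 ^^^ dodD) [] (baseC.take 1) trsC3 = true ∧
    trsC3.flatten.all (fun p => inM24 p && (pmask p dodD == dodD) && (img p 0 == 0) &&
      (img p 1 == 1) && (img p 2 == 2)) = true := by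
  refine ⟨?_, ?_, ?_, ?_⟩ <;> decide +kernel

theorem trsC_mem : ∀ p ∈ trsC.flatten, toPerm p ∈ S11 := by
  intro p hp
  have h := List.all_eq_true.1 compl_checks.2.1 p hp
  simp only [Bool.and_eq_true, beq_iff_eq] at h
  have hok : okPerm p = true := okPerm_of_inM24 h.1.1
  exact ⟨⟨toPerm_mem_M24 h.1.1, MulAction.mem_stabilizer_iff.2 (by rw [smul_toSet hok, h.1.2])⟩,
    mem_stab_img (by norm_num) hok h.2⟩

theorem S11_tuple_compl (x y : Fin 3 ↪ GolayPt) (hx : ∀ i, x i ∉ toSet dodD)
    (hy : ∀ i, y i ∉ toSet dodD) : ∃ g ∈ S11, ∀ i, g (x i) = y i := by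
  have key : ∀ z : Fin 3 ↪ GolayPt, (∀ i, z i ∉ toSet dodD) →
      ∃ g ∈ S11, ∀ i : Fin 3, g (z i) = pt (([] ++ baseC).getD i 0) := fun z hz =>
    cover_to_base compl_checks.1 trsC_mem (fun g hg x hx => S12_maps_compl hg.1 hx) z z.injective
      (fun i => by rw [toSet_complD, Finset.mem_compl]; exact hz i) 1 (one_mem _)
      (fun i hi => absurd hi (Nat.not_lt_zero _)) (by decide)
  obtain ⟨a, ha, hax⟩ := key x hx
  obtain ⟨b, hb, hby⟩ := key y hy
  exact ⟨b⁻¹ * a, mul_mem (inv_mem hb) ha, fun i => by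
    rw [Equiv.Perm.mul_apply, hax i, ← hby i]; exact b.symm_apply_apply (y i)⟩

/-- fixer of three standard points in the dodecad stabiliser -/
def S3pt : Subgroup (Equiv.Perm GolayPt) :=
  S12 ⊓ MulAction.stabilizer (Equiv.Perm GolayPt) (pt 0) ⊓
    MulAction.stabilizer (Equiv.Perm GolayPt) (pt 1) ⊓
    MulAction.stabilizer (Equiv.Perm GolayPt) (pt 2)

theorem mem_S3pt {g : Equiv.Perm GolayPt} :
    g ∈ S3pt ↔ g ∈ S12 ∧ g (pt 0) = pt 0 ∧ g (pt 1) = pt 1 ∧ g (pt 2) = pt 2 := by
  simp only [S3pt, Subgroup.mem_inf, mem_stab_pt, and_assoc]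

theorem S3pt_le : S3pt ≤ M24 := fun g hg => S12_le (mem_S3pt.1 hg).1

theorem S3pt_trans {x y : GolayPt} (hx : x ∉ toSet dodD) (hy : y ∉ toSet dodD) :
    ∃ g ∈ S3pt, g x = y := by
  have hG : ∀ p ∈ trsC3.flatten, toPerm p ∈ S3pt := by
    intro p hp
    have h := List.all_eq_true.1 compl_checks.2.2.2 p hp
    simp only [Bool.and_eq_true, beq_iff_eq] at h
    obtain ⟨⟨⟨⟨hM, hD⟩, h0⟩, h1⟩, h2⟩ := h
    have hok : okPerm p = true := okPerm_of_inM24 hM
    exact mem_S3pt.2 ⟨⟨toPerm_mem_M24 hM, MulAction.mem_stabilizer_iff.2 (by rw [smul_toSet hok, hD])⟩,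
      mem_stab_img (by norm_num) hok h0, mem_stab_img (by norm_num) hok h1,
      mem_stab_img (by norm_num) hok h2⟩
  have key : ∀ z : GolayPt, z ∉ toSet dodD →
      ∃ g ∈ S3pt, ∀ i : Fin 1, g ((fun _ => z) i) = pt (([] ++ baseC.take 1).getD i 0) := fun z hz =>
    cover_to_base compl_checks.2.2.1 hG (fun g hg x hx => S12_maps_compl (mem_S3pt.1 hg).1 hx)
      (fun _ : Fin 1 => z) (fun i j _ => Subsingleton.elim i j)
      (fun i => by rw [toSet_complD, Finset.mem_compl]; exact hz) 1 (one_mem _)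
      (fun i hi => absurd hi (Nat.not_lt_zero _)) (by decide)
  obtain ⟨a, ha, hax⟩ := key x hx
  obtain ⟨b, hb, hby⟩ := key y hy
  exact ⟨b⁻¹ * a, mul_mem (inv_mem hb) ha, by
    rw [Equiv.Perm.mul_apply, hax 0, ← hby 0]; exact b.symm_apply_apply y⟩

theorem card_S3pt : Nat.card S3pt = 72 := by
  classical
  apply le_antisymm
  · let s : Finset GolayPt := (((toSet dodD).erase (pt 0)).erase (pt 1)).erase (pt 2)
    let f : S3pt → ({p // p ∈ s} × {p // p ∈ s}) := fun g =>
      (⟨(g : Equiv.Perm GolayPt) (pt 3), by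
          have hg := mem_S3pt.1 g.2
          simp only [s, Finset.mem_erase, ne_eq]
          refine ⟨fun e => ?_, fun e => ?_, fun e => ?_, S12_maps hg.1 (by decide +kernel)⟩
          · exact absurd (g.1.injective (e.trans hg.2.2.2.symm)) (by decide +kernel)
          · exact absurd (g.1.injective (e.trans hg.2.2.1.symm)) (by decide +kernel)
          · exact absurd (g.1.injective (e.trans hg.2.1.symm)) (by decide +kernel)⟩,
       ⟨(g : Equiv.Perm GolayPt) (pt 4), by
          have hg := mem_S3pt.1 g.2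
          simp only [s, Finset.mem_erase, ne_eq]
          refine ⟨fun e => ?_, fun e => ?_, fun e => ?_, S12_maps hg.1 (by decide +kernel)⟩
          · exact absurd (g.1.injective (e.trans hg.2.2.2.symm)) (by decide +kernel)
          · exact absurd (g.1.injective (e.trans hg.2.2.1.symm)) (by decide +kernel)
          · exact absurd (g.1.injective (e.trans hg.2.1.symm)) (by decide +kernel)⟩)
    let P : Finset ({p // p ∈ s} × {p // p ∈ s}) := Finset.univ.filter fun x => x.1 ≠ x.2
    have hP : ∀ g, f g ∈ P := fun g => by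
      simp only [P, Finset.mem_filter, Finset.mem_univ, true_and, f, ne_eq, Subtype.mk.injEq]
      exact fun e => absurd (g.1.injective e) (by decide +kernel)
    have hinj : Function.Injective f := by
      intro g h e
      simp only [f, Prod.mk.injEq, Subtype.mk.injEq] at e
      apply Subtype.ext
      refine S12_sharp ⟨![pt 0, pt 1, pt 2, pt 3, pt 4], by decide +kernel⟩
        (by decide +kernel) (mem_S3pt.1 g.2).1 (mem_S3pt.1 h.2).1 fun i => ?_
      obtain ⟨a0, a1, a2⟩ := (mem_S3pt.1 g.2).2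
      obtain ⟨b0, b1, b2⟩ := (mem_S3pt.1 h.2).2
      fin_cases i <;> simp [a0, a1, a2, b0, b1, b2, e.1, e.2]
    have h1 : Nat.card S3pt ≤ Nat.card P :=
      Nat.card_le_card_of_injective (fun g => (⟨f g, hP g⟩ : P))
        fun g h e => hinj (congrArg Subtype.val e)
    have h2 : Nat.card P = 72 := by
      rw [Nat.card_eq_fintype_card, Fintype.card_coe]
      decide +kernel
    omega
  · have hlv : chkLv [3, 4] (trsG12.drop 3) = true := by decide +kernel
    have hmem : ∀ p ∈ (trsG12.drop 3).flatten, toPerm p ∈ S3pt := by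
      intro p hp
      have hfix : (trsG12.drop 3).flatten.all
          (fun p => okPerm p && (img p 0 == 0) && (img p 1 == 1) && (img p 2 == 2)) = true := by
        decide +kernel
      have h := List.all_eq_true.1 hfix p hp
      simp only [Bool.and_eq_true, beq_iff_eq] at h
      refine mem_S3pt.2 ⟨S12_trs p ?_, mem_stab_img (by norm_num) h.1.1.1 h.1.1.2,
        mem_stab_img (by norm_num) h.1.1.1 h.1.2, mem_stab_img (by norm_num) h.1.1.1 h.2⟩
      rw [List.mem_flatten] at hp ⊢
      obtain ⟨l, hl, hpl⟩ := hp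
      exact ⟨l, List.mem_of_mem_drop hl, hpl⟩
    calc 72 = ((trsG12.drop 3).map List.length).prod := by decide +kernel
      _ ≤ _ := prod_le_card hlv hmem

theorem conj_mem_of_stab_dod {d : Finset GolayPt} {a : Equiv.Perm GolayPt} (ha : a ∈ M24)
    (e : a • toSet dodD = d) {g : Equiv.Perm GolayPt} (hg : g ∈ S12) :
    a * g * a⁻¹ ∈ M24 ∧ (a * g * a⁻¹) • d = d := by
  refine ⟨mul_mem (mul_mem ha hg.1) (inv_mem ha), ?_⟩
  subst e
  rw [mul_smul, mul_smul, inv_smul_smul, MulAction.mem_stabilizer_iff.1 hg.2]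

theorem conj_apply' (a g : Equiv.Perm GolayPt) (x : GolayPt) :
    (a * g * a⁻¹) (a x) = a (g x) := by
  simp [Equiv.Perm.mul_apply, Equiv.Perm.inv_def]

theorem notMem_of_conj {d : Finset GolayPt} {a : Equiv.Perm GolayPt} (e : a • toSet dodD = d)
    {x : GolayPt} (hx : x ∉ d) : a⁻¹ x ∉ toSet dodD := fun h => hx (by
  have := Finset.smul_mem_smul_finset (a := a) h
  rw [e, Equiv.Perm.smul_def] at this
  simpa using this)

theorem mem_of_conj {d : Finset GolayPt} {a : Equiv.Perm GolayPt} (e : a • toSet dodD = d)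
    {x : GolayPt} (hx : x ∈ d) : a⁻¹ x ∈ toSet dodD := by
  subst e
  have := Finset.smul_mem_smul_finset (a := a⁻¹) hx
  rwa [inv_smul_smul, Equiv.Perm.smul_def] at this

end CfsgLib.Golay
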