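import Cfsg.Agent.Lib.Golay.Kinds
import Cfsg.Agent.Lib.Golay.LeaderData

/-! Cosets of the code: a leader of weight at most four, unique below four, a sextet at four. -/
set_option autoImplicit false
set_option linter.all false
set_option maxRecDepth 8000

namespace CfsgLib.Golay

open Cfsg
open scoped Pointwise

/-- the leader of the coset with high bits `j` -/
noncomputable def leadAt (j : ℕ) : ℕ := (leaders.getD (j / 64) []).getD (j % 64) 0

theorem leaders_check : (List.range 4096).all (fun j =>
    decide (leadAt j < 16777216) && Nat.ble (pc (leadAt j)) 4 &&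
      inCode (leadAt j ^^^ (j <<< 12))) = true := by decide +kernel

theorem low_check : (List.range 4096).all (fun j =>
    (encFast (j <<< 12) == 0) && (encFast j &&& 4095 == j)) = true := by decide +kernel

theorem exists_leader {m : ℕ} (hm : m < 16777216) :
    ∃ v, v < 16777216 ∧ pc v ≤ 4 ∧ inCode (m ^^^ v) = true := by
  set lo := m &&& 4095 with hlo
  have hlolt : lo < 4096 := Nat.lt_succ_of_le Nat.and_le_right
  set j := (m ^^^ encFast lo) >>> 12 with hj
  have hlow : encFast lo &&& 4095 = lo := by
    have := List.all_eq_true.1 low_check lo (List.mem_range.2 hlolt)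
    simp only [Bool.and_eq_true, beq_iff_eq] at this
    exact this.2
  have hcode : inCode (encFast lo) = true :=
    mem_codeList.1 (encFast_eq lo ▸ encAux_mem_spanList gens lo)
  have hx : m ^^^ encFast lo < 16777216 :=
    Nat.xor_lt_two_pow (n := 24) hm (lt_of_inCode hcode)
  have hjlt : j < 4096 := by
    rw [hj, Nat.shiftRight_eq_div_pow]
    omega
  have hr : m ^^^ encFast lo = j <<< 12 := by
    apply Nat.eq_of_testBit_eq
    intro i
    rw [Nat.testBit_shiftLeft]
    by_cases hi : i < 12
    · simp only [ge_iff_le, Nat.not_le.2 hi, decide_false, Bool.false_and]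
      have h1 : (encFast lo).testBit i = m.testBit i := by
        have h := congrArg (fun x => x.testBit i) hlow
        simp only [hlo, Nat.testBit_and] at h
        have h4 : (4095 : ℕ).testBit i = true := by
          rw [show (4095 : ℕ) = 2 ^ 12 - 1 from rfl, Nat.testBit_two_pow_sub_one]; simpa using hi
        simpa [h4] using h
      rw [Nat.testBit_xor, h1, Bool.xor_self]
    · simp only [ge_iff_le, Nat.not_lt.1 hi, decide_true, Bool.true_and, hj, Nat.testBit_shiftRight]
      rw [Nat.add_sub_cancel' (Nat.not_lt.1 hi)]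
  have h := List.all_eq_true.1 leaders_check j (List.mem_range.2 hjlt)
  simp only [Bool.and_eq_true, decide_eq_true_eq, Nat.ble_eq] at h
  refine ⟨leadAt j, h.1.1, h.1.2, ?_⟩
  have e : m ^^^ leadAt j = (leadAt j ^^^ (j <<< 12)) ^^^ encFast lo := by
    rw [← hr, ← Nat.xor_assoc, Nat.xor_assoc (leadAt j ^^^ m), Nat.xor_self, Nat.xor_zero,
      Nat.xor_comm]
  rw [e]
  exact inCode_xor h.2 hcode

theorem pc_xor_le (a b : ℕ) : pc (a ^^^ b) ≤ pc a + pc b := by
  rw [← card_toSet, ← card_toSet a, ← card_toSet b, toSet_xor]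
  refine (Finset.card_le_card ?_).trans (Finset.card_union_le _ _)
  intro x hx
  rw [Finset.mem_symmDiff] at hx
  rw [Finset.mem_union]
  tauto

/-- words of weight at most four in one coset: equal or two tetrads forming an octad -/
theorem small_pair {u v : ℕ} (hu : u < 16777216) (hv : v < 16777216) (hpu : pc u ≤ 4)
    (hpv : pc v ≤ 4) (h : inCode (u ^^^ v) = true) :
    u = v ∨ (pc u = 4 ∧ pc v = 4 ∧ toSet u ∪ toSet v ∈ octads ∧ Disjoint (toSet u) (toSet v)) := by
  rcases pc_cases h with h0 | h8 | h12 | h16 | h24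
  · left
    have := pc_eq_zero (Nat.xor_lt_two_pow (n := 24) hu hv) h0
    exact Nat.xor_eq_zero_iff.1 this
  · right
    have hle := pc_xor_le u v
    have hu4 : pc u = 4 := by omega
    have hv4 : pc v = 4 := by omega
    have hd : Disjoint (toSet u) (toSet v) := by
      rw [Finset.disjoint_iff_inter_eq_empty, ← Finset.card_eq_zero]
      have h1 : (symmDiff (toSet u) (toSet v)).card = 8 := by rw [← toSet_xor, card_toSet, h8]
      have h2 := Finset.card_union_add_card_inter (toSet u) (toSet v)
      have h3 : symmDiff (toSet u) (toSet v) = (toSet u ∪ toSet v) \ (toSet u ∩ toSet v) := by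
        ext x; simp only [Finset.mem_symmDiff, Finset.mem_sdiff, Finset.mem_union, Finset.mem_inter]; tauto
      rw [h3, Finset.card_sdiff_of_subset Finset.inter_subset_union] at h1
      rw [card_toSet, card_toSet] at h2
      omega
    refine ⟨hu4, hv4, ?_, hd⟩
    have := toSet_mem_octads (mem_octList.2 ⟨h, h8⟩)
    rwa [toSet_xor, Disjoint.symmDiff_eq_sup hd] at this
  all_goals (have := pc_xor_le u v; omega)

theorem tetrad_octads {S : Finset (Finset GolayPt)} (hS : S ∈ sextets) {t u : Finset GolayPt}
    (ht : t ∈ S) (hd : Disjoint t u) (ho : t ∪ u ∈ octads) : u ∈ S := by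
  obtain ⟨g, hg, e⟩ := exists_smul_tet0 (hS.2.1 t ht)
  subst e
  have hS0 : g⁻¹ • S = Sys sex0 := by
    refine sextet_unique_base (smul_sextet (inv_mem hg) hS) ?_
    have := Finset.smul_mem_smul_finset (a := g⁻¹) ht
    rwa [inv_smul_smul] at this
  have h1 : toSet tet0 ∪ g⁻¹ • u ∈ octads := by
    have := smul_octad (inv_mem hg) ho
    rwa [Finset.smul_finset_union, inv_smul_smul] at this
  obtain ⟨o, hoL, eo⟩ := exists_mask_octad h1
  have hsub : toSet tet0 ⊆ toSet o := eo ▸ Finset.subset_union_left
  rw [toSet_subset_iff (by decide)] at hsub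
  have hc := List.all_eq_true.1 sex0_check.2 o (List.mem_filter.2 ⟨hoL, by
    rw [beq_iff_eq, Nat.land_comm]; exact hsub⟩)
  rw [List.contains_iff_mem] at hc
  have hmem : g⁻¹ • u ∈ Sys sex0 := by
    refine mem_Sys.2 ⟨_, hc, ?_⟩
    rw [toSet_xor, eo]
    have hd' : Disjoint (toSet tet0) (g⁻¹ • u) := by
      rw [Finset.disjoint_iff_inter_eq_empty] at hd ⊢
      rw [← inv_smul_smul g (toSet tet0), ← smul_inter', hd, Finset.smul_finset_empty]
    ext x
    have hd2 : x ∈ toSet tet0 → x ∉ g⁻¹ • u := fun hx => Finset.disjoint_left.1 hd' hx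
    simp only [Finset.mem_symmDiff, Finset.mem_union]
    tauto
  have := Finset.smul_mem_smul_finset (a := g) hmem
  rwa [smul_inv_smul, ← hS0, smul_inv_smul] at this

/-- coset of a mask, small members, as sets -/
theorem coset_dichotomy {m : ℕ} (hm : m < 16777216) :
    (∃ v : ℕ, v < 16777216 ∧ pc v ≤ 3 ∧ inCode (m ^^^ v) = true ∧
      ∀ u, u < 16777216 → pc u ≤ 4 → inCode (m ^^^ u) = true → u = v) ∨
    (∃ S ∈ sextets, ∀ u, u < 16777216 →
      (pc u ≤ 4 ∧ inCode (m ^^^ u) = true ↔ toSet u ∈ S)) := by
  obtain ⟨v, hv, hpv, hc⟩ := exists_leader hm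
  have key : ∀ u, inCode (m ^^^ u) = true → inCode (u ^^^ v) = true := fun u hu => by
    have := inCode_xor hu hc
    rwa [show (m ^^^ u) ^^^ (m ^^^ v) = u ^^^ v by
      rw [Nat.xor_comm m u, Nat.xor_assoc u, ← Nat.xor_assoc m, Nat.xor_self, Nat.zero_xor]] at this
  by_cases h3 : pc v ≤ 3
  · left
    refine ⟨v, hv, h3, hc, fun u hu hpu hcu => ?_⟩
    rcases small_pair hu hv hpu hpv (key u hcu) with h | ⟨-, h, -⟩
    · exact h
    · omega
  · right
    have hv4 : pc v = 4 := by omega
    obtain ⟨S, ⟨hS, hvS⟩, -⟩ := sextet_exists_unique (toSet v) (by rw [card_toSet, hv4])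
    refine ⟨S, hS, fun u hu => ⟨fun ⟨hpu, hcu⟩ => ?_, fun huS => ?_⟩⟩
    · rcases small_pair hu hv hpu hpv (key u hcu) with h | ⟨-, -, ho, hd⟩
      · rwa [h]
      · refine tetrad_octads hS hvS hd.symm ?_
        rwa [Finset.union_comm]
    · refine ⟨by rw [← card_toSet, hS.2.1 _ huS], ?_⟩
      rcases eq_or_ne (toSet u) (toSet v) with he | hne
      · rwa [toSet_inj hu hv he]
      · have hd := sextet_disjoint hS huS hvS hne
        have ho := hS.2.2 _ huS _ hvS hne
        rw [mem_octads_iff, show toSet u ∪ toSet v = toSet (u ^^^ v) from by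
          rw [toSet_xor]; exact (Disjoint.symmDiff_eq_sup hd).symm,
          toMask_toSet (Nat.xor_lt_two_pow (n := 24) hu hv), mem_octList] at ho
        have := inCode_xor hc ho.1
        rwa [show (m ^^^ v) ^^^ (u ^^^ v) = m ^^^ u by
          rw [Nat.xor_comm u v, Nat.xor_assoc m, ← Nat.xor_assoc v, Nat.xor_self, Nat.zero_xor]] at this

theorem toMask_support₂_lt (w : GolayPt → ZMod 2) : toMask (support₂ w) < 16777216 := toMask_lt _

theorem sub_mem_iff (w v : GolayPt → ZMod 2) :
    w - v ∈ golayCode ↔ inCode (toMask (support₂ w) ^^^ toMask (support₂ v)) = true := by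
  rw [mem_golayCode_iff, show w - v = w + v from ?_, support₂_add, toMask_symmDiff]
  funext i
  simp only [Pi.sub_apply, Pi.add_apply]
  generalize w i = x
  generalize v i = y
  revert x y
  decide

theorem hammingNorm_eq_card (v : GolayPt → ZMod 2) : hammingNorm v = (support₂ v).card := rfl

end CfsgLib.Golay
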