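import Cfsg.Agent.Lib.Golay.OrbitStmt

/-! Intersection numbers with a fixed block. -/
set_option autoImplicit false
set_option linter.all false

namespace CfsgLib.Golay

open Cfsg
open scoped Pointwise

theorem Pats_single (s t : Finset GolayPt) :
    Pats [({s} : Finset (Finset GolayPt))] {t} = [256 ^ (s ∩ t).card] := by
  simp [Pats, Pat]

theorem pow256_inj {a b : ℕ} (h : [256 ^ a] = [256 ^ b]) : a = b :=
  Nat.pow_right_injective (le_of_lt (by norm_num : 2 < 256)) (List.head_eq_of_cons_eq h)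

theorem Kind.single_count (K : Kind) {B : Set (Finset GolayPt)}
    (hB : K.Ys = (fun s : Finset GolayPt => ({s} : Finset (Finset GolayPt))) '' B)
    {X : List ℕ} {cls : Cert} (h : chkOrbits K.E [X] cls = true)
    {a : Equiv.Perm GolayPt} (ha : a ∈ M24) {d : Finset GolayPt} (hS : a • Sys X = {d})
    {i k n : ℕ} (hi : i < cls.1.length) (hk : keyOf [X] (rootAt cls i) = [256 ^ k])
    (hn : sizeAt cls i = n) : {t | t ∈ B ∧ (d ∩ t).card = k}.ncard = n := by
  obtain ⟨hX, -, -, -⟩ := K.cert_spec h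
  rw [← hn, ← K.ncard hX (K.classOf_length h hi) ha (Xs := [{d}]) (by simp [hS]), hk,
    ← Set.ncard_image_of_injective {t | t ∈ B ∧ (d ∩ t).card = k} Finset.singleton_injective]
  congr 1
  ext Y
  simp only [Set.mem_image, Set.mem_ofPred_eq, hB]
  constructor
  · rintro ⟨t, ⟨ht, hk'⟩, rfl⟩
    exact ⟨⟨t, ht, rfl⟩, by rw [Pats_single, hk']⟩
  · rintro ⟨⟨t, ht, rfl⟩, hk'⟩
    exact ⟨t, ⟨ht, pow256_inj ((Pats_single d t).symm.trans hk')⟩, rfl⟩

theorem Kind.single_trans (K : Kind) {B : Set (Finset GolayPt)}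
    (hB : K.Ys = (fun s : Finset GolayPt => ({s} : Finset (Finset GolayPt))) '' B)
    {X : List ℕ} {cls : Cert} (h : chkOrbits K.E [X] cls = true)
    {a : Equiv.Perm GolayPt} (ha : a ∈ M24) {d : Finset GolayPt} (hS : a • Sys X = {d})
    {t t' : Finset GolayPt} (ht : t ∈ B) (ht' : t' ∈ B) (e : (d ∩ t).card = (d ∩ t').card) :
    ∃ g ∈ M24, g • d = d ∧ g • t = t' := by
  obtain ⟨g, hg, hfix, hgt⟩ := K.trans h ha (Xs := [{d}]) (by simp [hS]) (Y := {t}) (Y' := {t'})
    (by rw [hB]; exact ⟨t, ht, rfl⟩) (by rw [hB]; exact ⟨t', ht', rfl⟩)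
    (by rw [Pats_single, Pats_single, e])
  have h1 := hfix {d} (List.mem_singleton.2 rfl)
  rw [Finset.smul_finset_singleton, Finset.singleton_inj] at h1 hgt
  exact ⟨g, hg, h1, hgt⟩

theorem Kind.single_inter (K : Kind) {B : Set (Finset GolayPt)}
    (hB : K.Ys = (fun s : Finset GolayPt => ({s} : Finset (Finset GolayPt))) '' B)
    {X : List ℕ} {cls : Cert} (h : chkOrbits K.E [X] cls = true)
    {a : Equiv.Perm GolayPt} (ha : a ∈ M24) {d : Finset GolayPt} (hS : a • Sys X = {d})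
    {t : Finset GolayPt} (ht : t ∈ B) :
    ∃ i < cls.1.length, [256 ^ (d ∩ t).card] = keyOf [X] (rootAt cls i) := by
  have hY : ({t} : Finset (Finset GolayPt)) ∈ K.Ys := by rw [hB]; exact ⟨t, ht, rfl⟩
  obtain ⟨i, hi, hm⟩ := K.cover h ha hS hY
  rw [(K.orbit_eq h ha hS hi).2.1] at hm
  exact ⟨i, hi, (Pats_single d t).symm.trans hm.2⟩

theorem Kind.single_stab (K : Kind) {B : Set (Finset GolayPt)}
    (hB : K.Ys = (fun s : Finset GolayPt => ({s} : Finset (Finset GolayPt))) '' B)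
    {X : List ℕ} {cls : Cert} (h : chkOrbits K.E [X] cls = true)
    {a : Equiv.Perm GolayPt} (ha : a ∈ M24) {d : Finset GolayPt} (hS : a • Sys X = {d})
    {t : Finset GolayPt} (ht : t ∈ B) {i k n : ℕ} (hi : i < cls.1.length)
    (hk : keyOf [X] (rootAt cls i) = [256 ^ k]) (hn : sizeAt cls i = n) (htk : (d ∩ t).card = k) :
    n * Nat.card ↥(MulAction.stabilizer M24 d ⊓ MulAction.stabilizer M24 t) =
      Nat.card (MulAction.stabilizer M24 d) := by
  rw [← card_inf_stabilizer d t]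
  congr 1
  obtain ⟨-, heq, hc⟩ := K.orbit_eq h ha hS hi
  have hm : ({t} : Finset (Finset GolayPt)) ∈
      MulAction.orbit ↥(MulAction.stabilizer M24 ({d} : Finset (Finset GolayPt))) (rootOf cls a i) := by
    rw [heq]
    exact ⟨by rw [hB]; exact ⟨t, ht, rfl⟩, by rw [Pats_single, hk, htk]⟩
  rw [← hn, ← hc, ← MulAction.orbit_eq_iff.2 hm, orbit_single,
    Set.ncard_image_of_injective _ Finset.singleton_injective, stab_single]

end CfsgLib.Golay
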