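import Cfsg.Agent.Lib.Golay.Module24
import Cfsg.Agent.Lib.Golay.TrioData

/-! Invariant subspaces of the 24-dimensional space. -/
set_option autoImplicit false
set_option linter.all false
set_option maxRecDepth 20000

namespace CfsgLib.Golay

open Cfsg
open scoped Pointwise symmDiff

theorem movers_ok : OctTrio.movers.all (fun p => inM24 p && img p 23 == 23 && img p 0 == 0) = true ∧
    codeList.all (fun c => (c == 0) || (c == 16777215) || OctTrio.movers.any fun p =>
      !(pmask p c == c) && !(pmask p c == 16777215 ^^^ c)) = true := by
  decide +kernel

theorem zmod2_cases (q : ZMod 2) : q = 0 ∨ q = 1 := by revert q; decide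

set_option maxHeartbeats 2000000 in
theorem lattice (W : Submodule (ZMod 2) (GolayPt → ZMod 2))
    (hW : ∀ σ ∈ M24, ∀ w ∈ W, (fun p => w (σ.symm p)) ∈ W) :
    W = ⊥ ∨ W = Submodule.span (ZMod 2) {fun _ => (1 : ZMod 2)} ∨ W = golayCode ∨
      (W : Set (GolayPt → ZMod 2)) = {w | ∑ p, w p = 0} ∨ W = ⊤ := by
  classical
  have hsum : ∀ w : GolayPt → ZMod 2, ∑ p, w p = ((support₂ w).card : ZMod 2) := by
    intro w
    rw [← Finset.sum_filter_ne_zero, Finset.card_eq_sum_ones, Nat.cast_sum]
    refine Finset.sum_congr rfl fun p hp => ?_
    rcases zmod2_cases (w p) with h | h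
    · exact absurd h (Finset.mem_filter.1 hp).2
    · rw [h]; exact Nat.cast_one.symm
  have hone : (fun _ => (1 : ZMod 2)) ∈ golayCode := by
    rw [mem_golayCode_iff, show support₂ (fun _ : GolayPt => (1 : ZMod 2)) = toSet 16777215 by
      rw [toSet_full]; simp [support₂], toMask_toSet (by norm_num)]
    decide +kernel
  have hCinv : ∀ σ ∈ M24, ∀ w ∈ golayCode, (fun p => w (σ.symm p)) ∈ golayCode := by
    intro σ hσ w hw
    rw [mem_golayCode_iff, support_perm]
    exact (mem_supports_iff _).1 (smul_supports_mem hσ ((mem_supports_iff _).2
      ((mem_golayCode_iff w).1 hw)))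
  -- the words of the code spanned by the octads
  have hspan : ∀ X : Submodule (ZMod 2) (GolayPt → ZMod 2),
      (∀ m ∈ octList, toWord m ∈ X) → golayCode ≤ X := by
    intro X hoct v hv
    have hs : ∀ l : List ℕ, (∀ g ∈ l, g ∈ gens) → ∀ m ∈ spanList l, toWord m ∈ X := by
      intro l
      induction l with
      | nil =>
        intro _ m hm
        simp only [spanList, List.mem_singleton] at hm
        subst hm
        rw [show toWord 0 = 0 from funext fun p => by simp [toWord]]
        exact X.zero_mem
      | cons g l ih =>
        intro hl m hm
        simp only [spanList, List.mem_flatMap, List.mem_cons, List.not_mem_nil, or_false] at hm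
        obtain ⟨y, hy, rfl | rfl⟩ := hm
        · exact ih (fun z hz => hl z (List.mem_cons_of_mem _ hz)) m hy
        · rw [toWord_xor]
          exact X.add_mem (hoct g (gens_octad g (hl g List.mem_cons_self)))
            (ih (fun z hz => hl z (List.mem_cons_of_mem _ hz)) y hy)
    rw [toWord_eq v (toSet_toMask (support₂ v)).symm]
    exact hs gens (fun g hg => hg) _ (mem_codeList.2 ((mem_golayCode_iff v).1 hv))
  by_cases hle : W ≤ golayCode
  · -- inside the code
    have hinv' : ∀ σ ∈ M24, ∀ w ∈ W ⊔ Submodule.span (ZMod 2) {fun _ => (1 : ZMod 2)},
        (fun p => w (σ.symm p)) ∈ W ⊔ Submodule.span (ZMod 2) {fun _ => (1 : ZMod 2)} := by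
      intro σ hσ w hw
      obtain ⟨a, ha, b, hb, rfl⟩ := Submodule.mem_sup.1 hw
      obtain ⟨c, rfl⟩ := Submodule.mem_span_singleton.1 hb
      exact Submodule.mem_sup.2 ⟨_, hW σ hσ a ha, c • fun _ => 1,
        Submodule.smul_mem _ _ (Submodule.mem_span_singleton_self _), by funext p; simp⟩
    rcases code_irreducible _ (Submodule.mem_sup_right (Submodule.mem_span_singleton_self _))
      (sup_le hle (by rw [Submodule.span_le, Set.singleton_subset_iff]; exact hone)) hinv' with h | h
    · have hWle : W ≤ Submodule.span (ZMod 2) {fun _ => (1 : ZMod 2)} := h ▸ le_sup_left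
      by_cases h1 : (fun _ => (1 : ZMod 2)) ∈ W
      · exact Or.inr (Or.inl (le_antisymm hWle (by rw [Submodule.span_le, Set.singleton_subset_iff]; exact h1)))
      · refine Or.inl ((Submodule.eq_bot_iff W).2 fun x hx => ?_)
        obtain ⟨c, rfl⟩ := Submodule.mem_span_singleton.1 (hWle hx)
        rcases zmod2_cases c with rfl | rfl
        · rw [zero_smul]
        · exact absurd (by simpa using hx) h1
    · refine Or.inr (Or.inr (Or.inl (le_antisymm hle ?_)))
      have hoct : ∀ m ∈ octList, toWord m ∈ W ∨ toWord m + (fun _ => (1 : ZMod 2)) ∈ W := by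
        intro m hm
        have hmC : toWord m ∈ golayCode := by
          rw [mem_golayCode_iff, support₂_toWord, toMask_toSet (octList_lt hm)]
          exact (mem_octList.1 hm).1
        rw [← h] at hmC
        obtain ⟨a, ha, b, hb, e⟩ := Submodule.mem_sup.1 hmC
        obtain ⟨c, rfl⟩ := Submodule.mem_span_singleton.1 hb
        rcases zmod2_cases c with rfl | rfl
        · left; rw [← e, zero_smul, add_zero]; exact ha
        · right
          rw [← e, one_smul, add_assoc, show (fun _ : GolayPt => (1 : ZMod 2)) + (fun _ => 1) = 0 from
            funext fun _ => CharTwo.add_self_eq_zero 1, add_zero]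
          exact ha
      by_cases hmix : ∃ m ∈ octList, toWord m ∈ W
      · obtain ⟨m, hm, hmW⟩ := hmix
        refine hspan W fun m' hm' => ?_
        obtain ⟨σ, hσ, e⟩ := octad_transitive (toSet_mem_octads hm) (toSet_mem_octads hm')
        have := hW σ hσ _ hmW
        rwa [toWord_eq (m := m') (fun q => toWord m (σ.symm q))
          (by rw [support_perm, support₂_toWord, e])] at this
      · push Not at hmix
        exfalso
        obtain ⟨o₁, h₁, o₂, h₂, h₃⟩ : ∃ o₁ ∈ octList, ∃ o₂ ∈ octList, (o₁ ^^^ o₂) ∈ octList := by
          have : octList.any (fun a => octList.contains (octO ^^^ a)) = true ∧ octList.contains octO = true := by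
            decide +kernel
          simp only [List.any_eq_true, List.contains_iff_mem] at this
          obtain ⟨⟨a, ha, ha'⟩, hO⟩ := this
          exact ⟨octO, hO, a, ha, ha'⟩
        apply hmix _ h₃
        have := W.add_mem ((hoct o₁ h₁).resolve_left (hmix _ h₁)) ((hoct o₂ h₂).resolve_left (hmix _ h₂))
        rw [add_add_add_comm, show (fun _ : GolayPt => (1 : ZMod 2)) + (fun _ => 1) = 0 from
            funext fun _ => CharTwo.add_self_eq_zero 1, add_zero, ← toWord_xor] at this
        exact this
  · -- outside the code
    right; right; right
    obtain ⟨w, hw, hwC⟩ := SetLike.not_le_iff_exists.1 hle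
    let D : Finset GolayPt → Prop := fun t => toWord (toMask t) ∈ W ⊔ golayCode
    have hDinv : ∀ σ ∈ M24, ∀ t, D t → D (σ • t) := by
      intro σ hσ t ht
      obtain ⟨a, ha, b, hb, e⟩ := Submodule.mem_sup.1 ht
      have h2 : (fun p => toWord (toMask t) (σ.symm p)) ∈ W ⊔ golayCode :=
        Submodule.mem_sup.2 ⟨_, hW σ hσ a ha, _, hCinv σ hσ b hb, by rw [← e]; rfl⟩
      rwa [toWord_eq (m := toMask (σ • t)) (fun q => toWord (toMask t) (σ.symm q))
        (by rw [support_perm, support₂_toWord, toSet_toMask, toSet_toMask])] at h2
    have hDk : ∀ k ≤ 5, (∃ t, t.card = k ∧ D t) → ∀ t, t.card = k → D t := by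
      rintro k hk ⟨t, ht, hD⟩ t' ht'
      let x : Fin k ↪ GolayPt := (Finset.equivFinOfCardEq ht).symm.toEmbedding.trans
        (Function.Embedding.subtype _)
      let y : Fin k ↪ GolayPt := (Finset.equivFinOfCardEq ht').symm.toEmbedding.trans
        (Function.Embedding.subtype _)
      obtain ⟨g, hg, h⟩ := exists_map_tuple hk x y
      have e : g • t = t' := by
        refine Finset.eq_of_subset_of_card_le ?_ (by rw [Finset.card_smul_finset, ht, ht'])
        intro z hz
        obtain ⟨u, hu, rfl⟩ := Finset.mem_smul_finset.1 hz
        have hux : x (Finset.equivFinOfCardEq ht ⟨u, hu⟩) = u := by simp [x]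
        rw [← hux, Equiv.Perm.smul_def, h]
        exact ((Finset.equivFinOfCardEq ht').symm _).2
      exact e ▸ hDinv g hg t hD
    have hsd : ∀ s t, D s → D t → D (s ∆ t) := by
      intro s t hs ht
      show toWord (toMask (s ∆ t)) ∈ _
      rw [toMask_symmDiff, toWord_xor]
      exact Submodule.add_mem _ hs ht
    obtain ⟨t, htk, ht0, htD⟩ : ∃ t : Finset GolayPt, t.card ≤ 4 ∧ t.card ≠ 0 ∧ D t := by
      have key : ∀ v, v < 16777216 → inCode (toMask (support₂ w) ^^^ v) = true → pc v ≤ 4 →
          ∃ t : Finset GolayPt, t.card ≤ 4 ∧ t.card ≠ 0 ∧ D t := by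
        intro v hv hc hpv
        refine ⟨toSet v, by rw [card_toSet]; exact hpv, fun h0 => hwC ?_, ?_⟩
        · rw [card_toSet] at h0
          rw [pc_eq_zero hv h0, Nat.xor_zero] at hc
          exact (mem_golayCode_iff w).2 hc
        · show toWord (toMask (toSet v)) ∈ _
          rw [toMask_toSet hv]
          refine Submodule.mem_sup.2 ⟨w, hw, toWord v - w, ?_, by abel⟩
          rw [sub_mem_iff, support₂_toWord, toMask_toSet hv, Nat.xor_comm]
          exact hc
      rcases coset_dichotomy (m := toMask (support₂ w)) (toMask_lt _) with ⟨v, hv, hpv, hc, -⟩ | ⟨S, hS, hiff⟩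
      · exact key v hv hc (by omega)
      · obtain ⟨u, hu, -⟩ := sextet_cover hS none
        have h := (hiff (toMask u) (toMask_lt _)).2 (by rw [toSet_toMask]; exact hu)
        exact key _ (toMask_lt _) h.2 (by rw [← card_toSet, toSet_toMask, hS.2.1 u hu])
    -- all pairs
    have hpair : ∀ s : Finset GolayPt, s.card = 2 → D s := by
      have hall := hDk t.card (by omega) ⟨t, rfl, htD⟩
      have h2 : ∃ s : Finset GolayPt, s.card = 2 ∧ D s := by
        obtain ⟨A, B, hA, hB, hAB⟩ : ∃ A B : Finset GolayPt, A.card = t.card ∧ B.card = t.card ∧
            (A ∆ B).card = 2 := by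
          have h4 := htk
          interval_cases hn : t.card
          · exact absurd rfl ht0
          · exact ⟨toSet 1, toSet 2, by decide +kernel, by decide +kernel, by decide +kernel⟩
          · exact ⟨toSet 3, toSet 5, by decide +kernel, by decide +kernel, by decide +kernel⟩
          · exact ⟨toSet 7, toSet 11, by decide +kernel, by decide +kernel, by decide +kernel⟩
          · exact ⟨toSet 15, toSet 23, by decide +kernel, by decide +kernel, by decide +kernel⟩
        exact ⟨A ∆ B, hAB, hsd A B (hall A hA) (hall B hB)⟩
      exact hDk 2 (by omega) h2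
    have hDs : D (toSet 8388609) := hpair _ (by decide +kernel)
    -- a word of weight two inside
    have hWpair : ∀ s : Finset GolayPt, s.card = 2 →
        toWord (toMask s) ∈ W ∨ toWord (toMask s) + (fun _ => (1 : ZMod 2)) ∈ W ∨ golayCode ≤ W := by
      intro s hs
      by_cases hCW : golayCode ≤ W
      · exact Or.inr (Or.inr hCW)
      -- the code meets W in at most the constant words
      have hmeet : ∀ x ∈ W, x ∈ golayCode → x = 0 ∨ x = fun _ => (1 : ZMod 2) := by
        intro x hx hxC
        have hinv : ∀ σ ∈ M24, ∀ v ∈ (W ⊓ golayCode) ⊔ Submodule.span (ZMod 2) {fun _ => (1 : ZMod 2)},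
            (fun p => v (σ.symm p)) ∈ (W ⊓ golayCode) ⊔ Submodule.span (ZMod 2) {fun _ => (1 : ZMod 2)} := by
          intro σ hσ v hv
          obtain ⟨a, ha, b, hb, rfl⟩ := Submodule.mem_sup.1 hv
          obtain ⟨c, rfl⟩ := Submodule.mem_span_singleton.1 hb
          exact Submodule.mem_sup.2 ⟨_, ⟨hW σ hσ a ha.1, hCinv σ hσ a ha.2⟩, c • fun _ => 1,
            Submodule.smul_mem _ _ (Submodule.mem_span_singleton_self _), by funext p; simp⟩
        rcases code_irreducible _ (Submodule.mem_sup_right (Submodule.mem_span_singleton_self _))
          (sup_le inf_le_right (by rw [Submodule.span_le, Set.singleton_subset_iff]; exact hone)) hinv with h | h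
        · have hx' : x ∈ Submodule.span (ZMod 2) {fun _ => (1 : ZMod 2)} :=
            h ▸ Submodule.mem_sup_left ⟨hx, hxC⟩
          obtain ⟨c, rfl⟩ := Submodule.mem_span_singleton.1 hx'
          rcases zmod2_cases c with rfl | rfl
          · exact Or.inl (zero_smul _ _)
          · exact Or.inr (one_smul _ _)
        · exfalso
          apply hCW
          have hoctW : ∀ m ∈ octList, toWord m ∈ W ∨ toWord m + (fun _ => (1 : ZMod 2)) ∈ W := by
            intro m hm
            have hmC : toWord m ∈ golayCode := by
              rw [mem_golayCode_iff, support₂_toWord, toMask_toSet (octList_lt hm)]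
              exact (mem_octList.1 hm).1
            rw [← h] at hmC
            obtain ⟨a, ha, b, hb, e⟩ := Submodule.mem_sup.1 hmC
            obtain ⟨c, rfl⟩ := Submodule.mem_span_singleton.1 hb
            rcases zmod2_cases c with rfl | rfl
            · left; rw [← e, zero_smul, add_zero]; exact ha.1
            · right
              rw [← e, one_smul, add_assoc, show (fun _ : GolayPt => (1 : ZMod 2)) + (fun _ => 1) = 0 from
                funext fun _ => CharTwo.add_self_eq_zero 1, add_zero]
              exact ha.1
          by_cases hmix : ∃ m ∈ octList, toWord m ∈ W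
          · obtain ⟨m, hm, hmW⟩ := hmix
            refine hspan W fun m' hm' => ?_
            obtain ⟨σ, hσ, e⟩ := octad_transitive (toSet_mem_octads hm) (toSet_mem_octads hm')
            have := hW σ hσ _ hmW
            rwa [toWord_eq (m := m') (fun q => toWord m (σ.symm q))
              (by rw [support_perm, support₂_toWord, e])] at this
          · push Not at hmix
            exfalso
            obtain ⟨o₁, h₁, o₂, h₂, h₃⟩ : ∃ o₁ ∈ octList, ∃ o₂ ∈ octList, (o₁ ^^^ o₂) ∈ octList := by
              have : octList.any (fun a => octList.contains (octO ^^^ a)) = true ∧ octList.contains octO = true := by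
                decide +kernel
              simp only [List.any_eq_true, List.contains_iff_mem] at this
              obtain ⟨⟨a, ha, ha'⟩, hO⟩ := this
              exact ⟨octO, hO, a, ha, ha'⟩
            apply hmix _ h₃
            have := W.add_mem ((hoctW o₁ h₁).resolve_left (hmix _ h₁)) ((hoctW o₂ h₂).resolve_left (hmix _ h₂))
            rw [add_add_add_comm, show (fun _ : GolayPt => (1 : ZMod 2)) + (fun _ => 1) = 0 from
                funext fun _ => CharTwo.add_self_eq_zero 1, add_zero, ← toWord_xor] at this
            exact this
      -- the standard pair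
      have hstd : toWord 8388609 ∈ W ∨ toWord 8388609 + (fun _ => (1 : ZMod 2)) ∈ W := by
        have h0 : toWord (toMask (toSet 8388609)) ∈ W ⊔ golayCode := hDs
        rw [toMask_toSet (by norm_num)] at h0
        obtain ⟨a, ha, b, hb, e⟩ := Submodule.mem_sup.1 h0
        obtain ⟨hmv, hword⟩ := movers_ok
        have hbm := List.all_eq_true.1 hword (toMask (support₂ b))
          (mem_codeList.2 ((mem_golayCode_iff b).1 hb))
        simp only [Bool.or_eq_true, beq_iff_eq, List.any_eq_true, Bool.and_eq_true,
          Bool.not_eq_true', beq_eq_false_iff_ne] at hbm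
        have hbw := toWord_toMask_support₂ b
        rcases hbm with (h | h) | ⟨p, hp, hp1, hp2⟩
        · left
          rw [h] at hbw
          rw [← e, ← hbw, show toWord 0 = 0 from funext fun p => by simp [toWord], add_zero]
          exact ha
        · right
          rw [h] at hbw
          have h1 : toWord 16777215 = fun _ : GolayPt => (1 : ZMod 2) :=
            (toWord_eq (m := 16777215) _ (by rw [toSet_full]; simp [support₂])).symm
          rw [← e, ← hbw, h1, add_assoc, show (fun _ : GolayPt => (1 : ZMod 2)) + (fun _ => 1) = 0 from
            funext fun _ => CharTwo.add_self_eq_zero 1, add_zero]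
          exact ha
        · exfalso
          have hpp := List.all_eq_true.1 hmv p hp
          simp only [Bool.and_eq_true, beq_iff_eq] at hpp
          have hok := okPerm_of_inM24 hpp.1.1
          have hσ := toPerm_mem_M24 hpp.1.1
          have hs : toPerm p • toSet 8388609 = toSet 8388609 := by
            apply Finset.eq_of_subset_of_card_le
            · intro z hz
              obtain ⟨u, hu, rfl⟩ := Finset.mem_smul_finset.1 hz
              have : ∀ u ∈ toSet 8388609, idx u = 23 ∨ idx u = 0 := by decide +kernel
              rw [Equiv.Perm.smul_def]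
              rcases this u hu with h | h <;>
                rw [mem_toSet, idx_toPerm hok, h] <;> simp only [hpp.1.2, hpp.2] <;> decide
            · rw [Finset.card_smul_finset]
          have hfix : (fun q => toWord 8388609 ((toPerm p).symm q)) = toWord 8388609 :=
            toWord_eq _ (by rw [support_perm, support₂_toWord, hs])
          have hd : (fun q => a ((toPerm p).symm q)) - a = -((fun q => b ((toPerm p).symm q)) - b) := by
            funext q
            have e1 := congrFun e q
            have e2 := congrFun e ((toPerm p).symm q)
            have e3 := congrFun hfix q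
            simp only [Pi.add_apply] at e1 e2
            simp only [Pi.sub_apply, Pi.neg_apply]
            rw [← e3, ← e2] at e1
            have key : ∀ u1 u2 u3 u4 : ZMod 2, u1 + u2 = u3 + u4 → u3 - u1 = -(u4 - u2) := by decide
            exact key _ _ _ _ e1
          have hinW := W.sub_mem (hW _ hσ a ha) ha
          have hinC : (fun q => a ((toPerm p).symm q)) - a ∈ golayCode := by
            rw [hd]; exact golayCode.neg_mem (golayCode.sub_mem (hCinv _ hσ b hb) hb)
          have hneg : ((fun q => b ((toPerm p).symm q)) - b) = (fun q => a ((toPerm p).symm q)) - a := by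
            rw [hd]; funext q; exact (CharTwo.neg_eq _).symm
          have hmb : toMask (support₂ fun q => b ((toPerm p).symm q)) = pmask p (toMask (support₂ b)) := by
            rw [support_perm]
            conv_lhs => rw [← toSet_toMask (support₂ b), smul_toSet hok]
            rw [toMask_toSet]
            rw [pmask_eq]
            refine Nat.lt_pow_two_of_testBit (n := 24) _ fun j hj => ?_
            by_contra hb'
            rw [Bool.not_eq_false, testBit_pmGo] at hb'
            obtain ⟨i, hi, -, rfl⟩ := hb'
            have := img_lt hok hi
            omega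
          rcases hmeet _ hinW hinC with h | h
          · rw [← hneg, sub_eq_zero] at h
            rw [h] at hmb
            exact hp1 hmb.symm
          · rw [← hneg] at h
            apply hp2
            rw [← hmb, Nat.xor_comm, ← toMask_toSet (m := 16777215) (by norm_num), ← toMask_symmDiff]
            congr 1
            rw [toSet_full]
            ext z
            have := congrFun h z
            simp only [Pi.sub_apply] at this
            simp only [support₂, Finset.mem_filter, Finset.mem_univ, true_and, Finset.mem_symmDiff,
              not_true, and_false, or_false, false_or, not_not]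
            generalize b z = u1 at this ⊢
            generalize b ((toPerm p).symm z) = u2 at this ⊢
            revert u1 u2
            decide
      let x : Fin 2 ↪ GolayPt := (Finset.equivFinOfCardEq
        (show (toSet 8388609).card = 2 by decide +kernel)).symm.toEmbedding.trans (Function.Embedding.subtype _)
      let y : Fin 2 ↪ GolayPt := (Finset.equivFinOfCardEq hs).symm.toEmbedding.trans
        (Function.Embedding.subtype _)
      obtain ⟨g, hg, h⟩ := exists_map_tuple (k := 2) (by norm_num) x y
      have eg : g • toSet 8388609 = s := by
        refine Finset.eq_of_subset_of_card_le ?_ (by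
          rw [Finset.card_smul_finset, hs, show (toSet 8388609).card = 2 by decide +kernel])
        intro z hz
        obtain ⟨u, hu, rfl⟩ := Finset.mem_smul_finset.1 hz
        have hux : x (Finset.equivFinOfCardEq (show (toSet 8388609).card = 2 by decide +kernel) ⟨u, hu⟩) = u := by
          simp [x]
        rw [← hux, Equiv.Perm.smul_def, h]
        exact ((Finset.equivFinOfCardEq hs).symm _).2
      have hT : (fun q => toWord 8388609 (g.symm q)) = toWord (toMask s) :=
        toWord_eq _ (by rw [support_perm, support₂_toWord, toSet_toMask, eg])
      rcases hstd with h | h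
      · exact Or.inl (hT ▸ hW g hg _ h)
      · refine Or.inr (Or.inl ?_)
        have := hW g hg _ h
        have e2 : (fun q => (toWord 8388609 + (fun _ => (1 : ZMod 2)) : GolayPt → ZMod 2) (g.symm q)) =
            toWord (toMask s) + (fun _ => (1 : ZMod 2)) := by rw [← hT]; rfl
        exact e2 ▸ this
    -- all pairs lie in W
    have hall2 : ∀ a b : GolayPt, a ≠ b → toWord (toMask {a, b}) ∈ W := by
      intro a b hab
      by_cases hCW : golayCode ≤ W
      · have h := hpair {a, b} (Finset.card_pair hab)
        have : W ⊔ golayCode = W := sup_eq_left.2 hCW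
        rwa [show D {a, b} = (toWord (toMask {a, b}) ∈ W ⊔ golayCode) from rfl, this] at h
      rcases hWpair {a, b} (Finset.card_pair hab) with h | h | h
      · exact h
      · obtain ⟨c, hca, hcb⟩ : ∃ c : GolayPt, c ≠ a ∧ c ≠ b := by
          have : ((Finset.univ : Finset GolayPt) \ {a, b}).Nonempty := by
            rw [← Finset.card_pos, Finset.card_sdiff_of_subset (Finset.subset_univ _), Finset.card_univ,
              Fintype.card_option, ZMod.card, Finset.card_pair hab]
            norm_num
          obtain ⟨c, hc⟩ := this
          simp only [Finset.mem_sdiff, Finset.mem_insert, Finset.mem_singleton, not_or] at hc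
          exact ⟨c, hc.2⟩
        have hsum2 : ∀ u v : GolayPt, u ≠ v → toWord (toMask {u, v}) ∈ W ∨
            toWord (toMask {u, v}) + (fun _ => (1 : ZMod 2)) ∈ W := fun u v huv =>
          (hWpair {u, v} (Finset.card_pair huv)).imp_right fun h => h.resolve_right hCW
        have hid : toWord (toMask {a, c}) + toWord (toMask {c, b}) = toWord (toMask {a, b}) := by
          rw [← toWord_xor, ← toMask_symmDiff]
          congr 2
          ext z
          by_cases za : z = a
          · subst za; simp [Finset.mem_symmDiff, hab, hca.symm]
          by_cases zb : z = b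
          · subst zb; simp [Finset.mem_symmDiff, za, hcb.symm]
          by_cases zc : z = c
          · subst zc; simp [Finset.mem_symmDiff, za, zb]
          · simp [Finset.mem_symmDiff, za, zb, zc]
        by_contra hno
        have hother : ∀ u v : GolayPt, u ≠ v → ¬ toWord (toMask {u, v}) ∈ W := by
          intro u v huv hin
          apply hno
          let x : Fin 2 ↪ GolayPt := ⟨![u, v], by
            intro i j; fin_cases i <;> fin_cases j <;> simp [huv, huv.symm]⟩
          let y : Fin 2 ↪ GolayPt := ⟨![a, b], by
            intro i j; fin_cases i <;> fin_cases j <;> simp [hab, hab.symm]⟩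
          obtain ⟨g, hg, hg'⟩ := exists_map_tuple (k := 2) (by norm_num) x y
          have e : g • ({u, v} : Finset GolayPt) = {a, b} := by
            rw [Finset.smul_finset_insert, Finset.smul_finset_singleton]
            have h0 : g u = a := hg' 0
            have h1 : g v = b := hg' 1
            rw [Equiv.Perm.smul_def, Equiv.Perm.smul_def, h0, h1]
          have := hW g hg _ hin
          rwa [toWord_eq (m := toMask {a, b}) (fun q => toWord (toMask {u, v}) (g.symm q))
            (by rw [support_perm, support₂_toWord, toSet_toMask, toSet_toMask, e])] at this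
        have := W.add_mem ((hsum2 a c hca.symm).resolve_left (hother _ _ hca.symm))
          ((hsum2 c b hcb).resolve_left (hother _ _ hcb))
        rw [add_add_add_comm, hid, show (fun _ : GolayPt => (1 : ZMod 2)) + (fun _ => 1) = 0 from
            funext fun _ => CharTwo.add_self_eq_zero 1, add_zero] at this
        exact hno this
      · exact absurd h hCW
    have heven : ∀ x : GolayPt → ZMod 2, ∑ p, x p = 0 → x ∈ W := by
      intro x hx
      have key : ∀ n, ∀ s : Finset GolayPt, s.card = 2 * n → toWord (toMask s) ∈ W := by
        intro n
        induction n with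
        | zero =>
          intro s hs
          rw [show s = ∅ from Finset.card_eq_zero.1 (by omega)]
          rw [show toWord (toMask (∅ : Finset GolayPt)) = 0 by
            funext p; simp [toWord, toMask]]
          exact W.zero_mem
        | succ n ih =>
          intro s hs
          obtain ⟨a, ha⟩ := Finset.card_pos.1 (show 0 < s.card by omega)
          obtain ⟨b, hb⟩ := Finset.card_pos.1 (show 0 < (s.erase a).card by
            rw [Finset.card_erase_of_mem ha]; omega)
          have hba := Finset.mem_erase.1 hb
          have e : s = ((s.erase a).erase b) ∆ {a, b} := by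
            ext z
            simp only [Finset.mem_symmDiff, Finset.mem_erase, Finset.mem_insert, Finset.mem_singleton]
            constructor
            · intro hz
              by_cases za : z = a
              · exact Or.inr ⟨Or.inl za, fun h => h.2.1 za⟩
              by_cases zb : z = b
              · exact Or.inr ⟨Or.inr zb, fun h => h.1 zb⟩
              exact Or.inl ⟨⟨zb, za, hz⟩, by rintro (h | h); exacts [za h, zb h]⟩
            · rintro (⟨⟨-, -, hz⟩, -⟩ | ⟨h | h, -⟩)
              · exact hz
              · exact h ▸ ha
              · exact h ▸ hba.2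
          rw [e, toMask_symmDiff, toWord_xor]
          refine W.add_mem (ih _ ?_) (hall2 a b (Ne.symm hba.1))
          rw [Finset.card_erase_of_mem hb, Finset.card_erase_of_mem ha]
          omega
      rw [← toWord_toMask_support₂ x]
      rw [hsum, ZMod.natCast_eq_zero_iff] at hx
      obtain ⟨n, hn⟩ := hx
      exact key n _ (by omega)
    by_cases hodd : ∃ x ∈ W, ∑ p, x p = 1
    · right
      obtain ⟨x, hx, hx1⟩ := hodd
      refine eq_top_iff.2 fun y _ => ?_
      rcases zmod2_cases (∑ p, y p) with h | h
      · exact heven y h
      · have h2 : y - x ∈ W := heven _ (by simp [Finset.sum_sub_distrib, h, hx1])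
        simpa using W.add_mem h2 hx
    · left
      push Not at hodd
      ext x
      exact ⟨fun hx => (zmod2_cases _).resolve_right (hodd x hx), heven x⟩

end CfsgLib.Golay
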