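import Cfsg.Agent.Lib.Golay.Transitive
import Cfsg.Agent.Lib.Golay.Cosets

/-! The code and the cocode as modules for `M24`. -/
set_option autoImplicit false
set_option linter.all false
set_option maxRecDepth 20000

namespace CfsgLib.Golay

open Cfsg
open scoped Pointwise symmDiff

theorem word_cases {w : GolayPt → ZMod 2} (hw : w ∈ golayCode) :
    (support₂ w).card = 0 ∨ support₂ w ∈ octads ∨ support₂ w ∈ dodecads ∨
      (support₂ w)ᶜ ∈ octads ∨ (support₂ w).card = 24 := by
  have hs : inCode (toMask (support₂ w)) = true := (mem_golayCode_iff w).1 hw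
  have hc : (support₂ w).card = pc (toMask (support₂ w)) := by
    rw [← card_toSet, toSet_toMask]
  rcases pc_cases hs with h | h | h | h | h
  · exact Or.inl (hc.trans h)
  · exact Or.inr (Or.inl ((mem_octads_iff _).2 (mem_octList.2 ⟨hs, h⟩)))
  · exact Or.inr (Or.inr (Or.inl ((mem_dodecads_iff _).2 (mem_dodList.2 ⟨hs, h⟩))))
  · refine Or.inr (Or.inr (Or.inr (Or.inl ?_)))
    have h24 : inCode 16777215 = true := by decide +kernel
    have hx : inCode (16777215 ^^^ toMask (support₂ w)) = true := inCode_xor h24 hs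
    rw [← toSet_toMask (support₂ w), ← toSet_compl]
    refine toSet_mem_octads (mem_octList.2 ⟨hx, ?_⟩)
    have h1 := Finset.card_compl (toSet (toMask (support₂ w)))
    rw [← toSet_compl, card_toSet, card_toSet, h, Fintype.card_option, ZMod.card] at h1
    exact h1
  · exact Or.inr (Or.inr (Or.inr (Or.inr (hc.trans h))))

theorem support_perm (σ : Equiv.Perm GolayPt) (w : GolayPt → ZMod 2) :
    support₂ (fun p => w (σ.symm p)) = σ • support₂ w := by
  ext p
  rw [← Finset.inv_smul_mem_iff, Equiv.Perm.smul_def, show σ⁻¹ p = σ.symm p from rfl]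
  simp [support₂]

theorem toWord_eq {m : ℕ} (w : GolayPt → ZMod 2) (h : support₂ w = toSet m) : w = toWord m :=
  support₂_inj (h.trans (support₂_toWord m).symm)

theorem gens_octad : ∀ g ∈ gens, g ∈ octList := by
  intro g hg
  revert g
  decide +kernel

theorem dod_sum_octad : dodList.any (fun a => pc (a ^^^ dodD) == 8) = true := by decide +kernel

theorem code_irreducible (W : Submodule (ZMod 2) (GolayPt → ZMod 2))
    (h1 : (fun _ => (1 : ZMod 2)) ∈ W) (hW : W ≤ golayCode)
    (hinv : ∀ σ ∈ M24, ∀ w ∈ W, (fun p => w (σ.symm p)) ∈ W) :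
    W = Submodule.span (ZMod 2) {fun _ => (1 : ZMod 2)} ∨ W = golayCode := by
  classical
  have hall : ∀ o ∈ octads, ∀ x ∈ W, support₂ x = o → golayCode ≤ W := by
    intro o ho x hx hxo v hv
    have hoct : ∀ m ∈ octList, toWord m ∈ W := fun m hm => by
      obtain ⟨σ, hσ, e⟩ := octad_transitive ho (toSet_mem_octads hm)
      have := hinv σ hσ x hx
      rwa [toWord_eq (m := m) (fun q => x (σ.symm q)) (by rw [support_perm, hxo, e])] at this
    have hspan : ∀ l : List ℕ, (∀ g ∈ l, g ∈ gens) → ∀ m ∈ spanList l, toWord m ∈ W := by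
      intro l
      induction l with
      | nil =>
        intro _ m hm
        simp only [spanList, List.mem_singleton] at hm
        subst hm
        rw [show toWord 0 = 0 from funext fun p => by simp [toWord]]
        exact W.zero_mem
      | cons g l ih =>
        intro hl m hm
        simp only [spanList, List.mem_flatMap, List.mem_cons, List.not_mem_nil, or_false] at hm
        obtain ⟨y, hy, rfl | rfl⟩ := hm
        · exact ih (fun z hz => hl z (List.mem_cons_of_mem _ hz)) m hy
        · rw [toWord_xor]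
          exact W.add_mem (hoct g (gens_octad g (hl g List.mem_cons_self)))
            (ih (fun z hz => hl z (List.mem_cons_of_mem _ hz)) y hy)
    rw [toWord_eq v (toSet_toMask (support₂ v)).symm]
    exact hspan gens (fun g hg => hg) _ (mem_codeList.2 ((mem_golayCode_iff v).1 hv))
  by_cases h : ∀ x ∈ W, (support₂ x).card = 0 ∨ (support₂ x).card = 24
  · left
    refine le_antisymm (fun x hx => ?_) (by rw [Submodule.span_le, Set.singleton_subset_iff]; exact h1)
    rw [Submodule.mem_span_singleton]
    rcases h x hx with h0 | h0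
    · refine ⟨0, ?_⟩
      rw [Finset.card_eq_zero] at h0
      rw [zero_smul]
      funext p
      by_contra hp
      have : p ∈ support₂ x := by simp [support₂]; exact fun e => hp e.symm
      rw [h0] at this
      exact Finset.notMem_empty p this
    · refine ⟨1, ?_⟩
      rw [one_smul]
      funext p
      have hu : support₂ x = Finset.univ := (Finset.card_eq_iff_eq_univ _).1 (by
        rw [h0, Fintype.card_option, ZMod.card])
      have : p ∈ support₂ x := by rw [hu]; exact Finset.mem_univ p
      simp [support₂] at this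
      generalize x p = q at this ⊢
      revert q; decide
  · right
    push Not at h
    obtain ⟨x, hx, hx0, hx24⟩ := h
    refine le_antisymm hW ?_
    rcases word_cases (hW hx) with e | e | e | e | e
    · exact absurd e hx0
    · exact hall _ e x hx rfl
    · obtain ⟨a, ha, h8⟩ := List.any_eq_true.1 dod_sum_octad
      rw [beq_iff_eq] at h8
      obtain ⟨σ, hσ, eσ⟩ := dodecad_transitive e (toSet_mem_dodecads ha)
      obtain ⟨τ, hτ, eτ⟩ := dodecad_transitive e toSet_dodD
      have hy := W.add_mem (hinv σ hσ x hx) (hinv τ hτ x hx)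
      rw [toWord_eq (m := a) (fun q => x (σ.symm q)) (by rw [support_perm, eσ]),
        toWord_eq (m := dodD) (fun q => x (τ.symm q)) (by rw [support_perm, eτ]), ← toWord_xor] at hy
      refine hall (toSet (a ^^^ dodD)) (toSet_mem_octads (mem_octList.2 ⟨?_, h8⟩)) _ hy
        (support₂_toWord _)
      exact inCode_xor (mem_dodList.1 ha).1 (by decide +kernel)
    · refine hall _ e _ (W.add_mem hx h1) ?_
      ext p
      simp only [support₂, Finset.mem_compl, Finset.mem_filter, Finset.mem_univ, true_and, Pi.add_apply]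
      have hq : ∀ q : ZMod 2, q + 1 ≠ 0 ↔ ¬ q ≠ 0 := by decide
      exact hq _
    · exact absurd e hx24

/-- permutations fixing the standard octad -/
def octMovers : List ℕ := [967365292857695660364575527991871520, 980432007022788775397046874473433120,
  715872302521680643580706198532491296, 984683745953939945618138913696812064,
  984778822338565988800583747246260322]

/-- permutations fixing the standard dodecad -/
def dodMovers : List ℕ := [235669381520943648768792755215536224, 235574414548826811735420875188869248,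
  483114724416875342768628510652371245]

theorem movers_check :
    octMovers.all (fun p => inM24 p && (pmask p octO == octO)) = true ∧
    dodMovers.all (fun p => inM24 p && (pmask p dodD == dodD)) = true ∧
    (List.range 4096).all (fun k => (k == 0) ||
      octMovers.any (fun p => !inCode (pmask p (k <<< 12) ^^^ (k <<< 12)))) = true ∧
    (List.range 4096).all (fun k => (k == 0) ||
      dodMovers.any (fun p => !inCode (pmask p (k <<< 12) ^^^ (k <<< 12)))) = true := by
  refine ⟨?_, ?_, ?_, ?_⟩ <;> decide +kernel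

theorem coset_rep (T : Finset GolayPt) (hT : ¬ inCode (toMask T) = true) :
    ∃ k < 4096, k ≠ 0 ∧ inCode (toMask T ^^^ (k <<< 12)) = true := by
  have hm : toMask T < 16777216 := toMask_lt T
  obtain ⟨lo, hlo⟩ : ∃ lo, lo = toMask T &&& 4095 := ⟨_, rfl⟩
  have hlolt : lo < 4096 := hlo ▸ Nat.lt_succ_of_le Nat.and_le_right
  obtain ⟨j, hj⟩ : ∃ j, j = (toMask T ^^^ encFast lo) >>> 12 := ⟨_, rfl⟩
  have hlow : encFast lo &&& 4095 = lo := by
    have := List.all_eq_true.1 low_check lo (List.mem_range.2 hlolt)
    simp only [Bool.and_eq_true, beq_iff_eq] at this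
    exact this.2
  have hcode : inCode (encFast lo) = true :=
    mem_codeList.1 (encFast_eq lo ▸ encAux_mem_spanList gens lo)
  have hjlt : j < 4096 := by
    have := Nat.xor_lt_two_pow (n := 24) hm (lt_of_inCode hcode)
    rw [hj, Nat.shiftRight_eq_div_pow]
    omega
  have hr : toMask T ^^^ encFast lo = j <<< 12 := by
    apply Nat.eq_of_testBit_eq
    intro i
    rw [Nat.testBit_shiftLeft]
    by_cases hi : i < 12
    · simp only [ge_iff_le, Nat.not_le.2 hi, decide_false, Bool.false_and]
      have h1 : (encFast lo).testBit i = (toMask T).testBit i := by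
        have h := congrArg (fun x => x.testBit i) hlow
        simp only [hlo, Nat.testBit_and] at h
        have h4 : (4095 : ℕ).testBit i = true := by
          rw [show (4095 : ℕ) = 2 ^ 12 - 1 from rfl, Nat.testBit_two_pow_sub_one]; simpa using hi
        simpa [h4, hlo] using h
      rw [Nat.testBit_xor, h1, Bool.xor_self]
    · simp only [ge_iff_le, Nat.not_lt.1 hi, decide_true, Bool.true_and, hj, Nat.testBit_shiftRight]
      rw [Nat.add_sub_cancel' (Nat.not_lt.1 hi)]
  have e : toMask T ^^^ (j <<< 12) = encFast lo := by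
    rw [← hr, ← Nat.xor_assoc, Nat.xor_self, Nat.zero_xor]
  refine ⟨j, hjlt, fun h0 => hT ?_, by rw [e]; exact hcode⟩
  rw [h0, Nat.zero_shiftLeft, Nat.xor_zero] at e
  rw [e]; exact hcode

theorem cocode_move {B : ℕ} {L : List ℕ}
    (hL : L.all (fun p => inM24 p && (pmask p B == B)) = true)
    (hk : (List.range 4096).all (fun k => (k == 0) ||
      L.any (fun p => !inCode (pmask p (k <<< 12) ^^^ (k <<< 12)))) = true)
    {a : Equiv.Perm GolayPt} (ha : a ∈ M24) {T : Finset GolayPt}
    (hT : ¬ inCode (toMask T) = true) :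
    ∃ σ ∈ M24, σ • (a • toSet B) = a • toSet B ∧ ¬ inCode (toMask ((σ • T) ∆ T)) = true := by
  have sw : ∀ {g : Equiv.Perm GolayPt}, g ∈ M24 → ∀ {s : Finset GolayPt},
      inCode (toMask s) = true → inCode (toMask (g • s)) = true := fun hg s hs =>
    (mem_supports_iff _).1 (smul_supports_mem hg ((mem_supports_iff _).2 hs))
  obtain ⟨T', hT'⟩ : ∃ T', T' = a⁻¹ • T := ⟨_, rfl⟩
  have hTT : T = a • T' := by rw [hT', smul_inv_smul]
  have hT'n : ¬ inCode (toMask T') = true := fun h => hT (hTT ▸ sw ha h)
  obtain ⟨k, hk4, hk0, hkc⟩ := coset_rep T' hT'n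
  have hor := List.all_eq_true.1 hk k (List.mem_range.2 hk4)
  simp only [Bool.or_eq_true, beq_iff_eq, hk0, false_or, List.any_eq_true,
    Bool.not_eq_true'] at hor
  obtain ⟨p, hp, hpk⟩ := hor
  have hchk := List.all_eq_true.1 hL p hp
  simp only [Bool.and_eq_true, beq_iff_eq] at hchk
  have hok : okPerm p = true := okPerm_of_inM24 hchk.1
  have hτ := toPerm_mem_M24 hchk.1
  refine ⟨a * toPerm p * a⁻¹, mul_mem (mul_mem ha hτ) (inv_mem ha), ?_, fun h => ?_⟩
  · rw [mul_smul, mul_smul, inv_smul_smul, smul_toSet hok, hchk.2]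
  · have h2 : inCode (toMask ((toPerm p • T') ∆ T')) = true := by
      have := sw (inv_mem ha) h
      rwa [smul_symmDiff', hTT, mul_smul, mul_smul, inv_smul_smul, inv_smul_smul] at this
    have hk24 : k <<< 12 < 16777216 := by rw [Nat.shiftLeft_eq]; omega
    have h3 : inCode (toMask (T' ∆ toSet (k <<< 12))) = true := by
      rw [toMask_symmDiff, toMask_toSet hk24]; exact hkc
    have h4 := inCode_xor (inCode_xor h2 (sw hτ h3)) h3
    rw [← toMask_symmDiff, ← toMask_symmDiff, smul_symmDiff', smul_toSet hok] at h4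
    have e : ((toPerm p • T') ∆ T') ∆ ((toPerm p • T') ∆ toSet (pmask p (k <<< 12))) ∆
        (T' ∆ toSet (k <<< 12)) = toSet (pmask p (k <<< 12)) ∆ toSet (k <<< 12) := by
      ext x
      simp only [Finset.mem_symmDiff]
      by_cases h1 : x ∈ toPerm p • T' <;> by_cases h2' : x ∈ T' <;>
        by_cases h3' : x ∈ toSet (pmask p (k <<< 12)) <;> by_cases h4' : x ∈ toSet (k <<< 12) <;>
        simp [h1, h2', h3', h4']
    rw [e, toMask_symmDiff, toMask_toSet hk24, toMask_toSet] at h4
    · rw [h4] at hpk; exact absurd hpk (by decide)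
    · rw [pmask_eq]
      refine Nat.lt_pow_two_of_testBit (n := 24) _ fun j hj => ?_
      by_contra hb
      rw [Bool.not_eq_false, testBit_pmGo] at hb
      obtain ⟨i, hi, -, rfl⟩ := hb
      have := img_lt hok hi
      omega

theorem cocode_fixed (u : GolayPt → ZMod 2) (hu : u ∈ golayCode) (w : GolayPt → ZMod 2)
    (hw : w ∉ golayCode) :
    ∃ σ ∈ M24, (fun p => u (σ.symm p)) = u ∧ (fun p => w (σ.symm p)) - w ∉ golayCode := by
  classical
  have hT : ¬ inCode (toMask (support₂ w)) = true := fun h => hw ((mem_golayCode_iff w).2 h)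
  suffices h : ∃ σ ∈ M24, σ • support₂ u = support₂ u ∧
      ¬ inCode (toMask ((σ • support₂ w) ∆ support₂ w)) = true by
    obtain ⟨σ, hσ, e1, e2⟩ := h
    refine ⟨σ, hσ, support₂_inj (by rw [support_perm, e1]), fun h => e2 ?_⟩
    rw [sub_mem_iff, support_perm] at h
    rwa [toMask_symmDiff]
  obtain ⟨hoL, hdL, hok, hdk⟩ := movers_check
  rcases word_cases hu with e | e | e | e | e
  · obtain ⟨σ, hσ, -, h2⟩ := cocode_move hdL hdk (one_mem M24) hT
    rw [Finset.card_eq_zero] at e
    exact ⟨σ, hσ, by rw [e, Finset.smul_finset_empty], h2⟩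
  · obtain ⟨a, ha, ea⟩ := exists_octO e
    obtain ⟨σ, hσ, h1, h2⟩ := cocode_move hoL hok ha hT
    exact ⟨σ, hσ, ea ▸ h1, h2⟩
  · obtain ⟨a, ha, ea⟩ := exists_dodD e
    obtain ⟨σ, hσ, h1, h2⟩ := cocode_move hdL hdk ha hT
    exact ⟨σ, hσ, ea ▸ h1, h2⟩
  · obtain ⟨a, ha, ea⟩ := exists_octO e
    obtain ⟨σ, hσ, h1, h2⟩ := cocode_move hoL hok ha hT
    rw [ea, smul_compl'] at h1
    exact ⟨σ, hσ, compl_injective h1, h2⟩
  · obtain ⟨σ, hσ, -, h2⟩ := cocode_move hdL hdk (one_mem M24) hT
    have hu' : support₂ u = Finset.univ := (Finset.card_eq_iff_eq_univ _).1 (by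
      rw [e, Fintype.card_option, ZMod.card])
    exact ⟨σ, hσ, by rw [hu', Finset.smul_finset_univ], h2⟩

end CfsgLib.Golay
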