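import Cfsg.Agent.Lib.Golay.Inter

/-! Octads with chosen points, moved to standard position. -/
set_option autoImplicit false
set_option linter.all false

namespace CfsgLib.Golay

open Cfsg
open scoped Pointwise

theorem bp_mem_octO : ∀ i < 6, bp i ∈ toSet octO := by decide +kernel

theorem exists_octad_pts : ∀ (j k : ℕ), k + j = 5 → ∀ (o : Finset GolayPt), o ∈ octads →
    ∀ x : Fin k ↪ GolayPt, (∀ i, x i ∈ o) →
      ∃ a ∈ M24, a • toSet octO = o ∧ ∀ i : Fin k, a (bp i) = x i
  | 0, k, hk, o, ho, x, hx => by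
    obtain ⟨g, hg, h⟩ := exists_to_base k (by omega) x
    have hinv : ∀ i : Fin k, g⁻¹ (bp i) = x i := fun i => by
      rw [Equiv.Perm.inv_eq_iff_eq, h i]
    refine ⟨g⁻¹, inv_mem hg, octad_unique (smul_octad (inv_mem hg) toSet_octO) ho ?_, hinv⟩
    calc 5 = (Finset.univ.map x).card := by simp; omega
      _ ≤ _ := Finset.card_le_card fun z hz => by
        simp only [Finset.mem_map, Finset.mem_univ, true_and] at hz
        obtain ⟨i, rfl⟩ := hz
        refine Finset.mem_inter.2 ⟨?_, hx i⟩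
        rw [← hinv i]
        exact Finset.smul_mem_smul_finset (a := g⁻¹) (bp_mem_octO i (by omega))
  | j + 1, k, hk, o, ho, x, hx => by
    obtain ⟨y, hy, hyn⟩ : ∃ y ∈ o, y ∉ Finset.univ.map x := by
      apply Finset.exists_mem_notMem_of_card_lt_card
      rw [card_octad ho]; simp; omega
    let x' : Fin (k + 1) ↪ GolayPt := ⟨Fin.snoc x y, Fin.snoc_injective_iff.2
      ⟨x.injective, fun ⟨i, e⟩ => hyn (Finset.mem_map.2 ⟨i, Finset.mem_univ _, e⟩)⟩⟩
    obtain ⟨a, ha, e, h⟩ := exists_octad_pts j (k + 1) (by omega) o ho x' (by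
      intro i
      induction i using Fin.lastCases with
      | last => simpa [x'] using hy
      | cast i => simpa [x'] using hx i)
    exact ⟨a, ha, e, fun i => by simpa [x'] using h i.castSucc⟩

theorem exists_octad_two {o : Finset GolayPt} (ho : o ∈ octads) {p q : GolayPt} (hpq : p ≠ q)
    (hp : p ∈ o) (hq : q ∈ o) :
    ∃ a ∈ M24, a • toSet octO = o ∧ a (bp 0) = p ∧ a (bp 1) = q := by
  have hinj : Function.Injective ![p, q] := by
    intro i j
    fin_cases i <;> fin_cases j <;> simp [hpq, Ne.symm hpq]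
  obtain ⟨a, ha, e, h⟩ := exists_octad_pts 3 2 rfl o ho ⟨![p, q], hinj⟩
    (by intro i; fin_cases i <;> simp [hp, hq])
  exact ⟨a, ha, e, h 0, h 1⟩

theorem exists_octad_in_out {o : Finset GolayPt} (ho : o ∈ octads) {p q : GolayPt}
    (hp : p ∈ o) (hq : q ∉ o) :
    ∃ a ∈ M24, a • toSet octO = o ∧ a (bp 0) = p ∧ a (bp 6) = q := by
  obtain ⟨a, ha, e, h⟩ := exists_octad_pts 4 1 rfl o ho ⟨![p], fun i j _ => Subsingleton.elim i j⟩
    (by intro i; show ![p] i ∈ o; fin_cases i; exact hp)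
  have hy : a⁻¹ q ∈ toSet (allow 6) := by
    have hn : a⁻¹ q ∉ toSet octO := fun hm => hq (by
      have := Finset.smul_mem_smul_finset (a := a) hm
      rw [e, Equiv.Perm.smul_def] at this
      simpa using this)
    have hall : allow 6 = 16777215 ^^^ octO := by decide +kernel
    rw [hall, toSet_compl]; exact Finset.mem_compl.2 hn
  obtain ⟨c, hc, ec⟩ := exists_tr (show 6 < 7 by norm_num) hy
  have hc' := toPerm_tr_mem (show 6 < 7 by norm_num) hc
  have hfix := (fixB_six_spec hc').1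
  refine ⟨a * toPerm c, mul_mem ha hc'.1, ?_, ?_, ?_⟩
  · rw [mul_smul, show toPerm c • toSet octO = toSet octO from ?_, e]
    rw [Finset.smul_finset_def]
    conv_rhs => rw [← Finset.image_id (s := toSet octO)]
    exact Finset.image_congr fun z hz => hfix z hz
  · rw [Equiv.Perm.mul_apply, hfix _ (bp_mem_octO 0 (by norm_num))]; exact h 0
  · rw [Equiv.Perm.mul_apply, ec]; simp

theorem smul_Sys_pt {a : Equiv.Perm GolayPt} {i : ℕ} {p : GolayPt} (hi : i < 24)
    (h : a (pt i) = p) : a • Sys [2 ^ i] = {{p}} := by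
  rw [Sys_single, Finset.smul_finset_singleton, show 2 ^ i = 2 ^ idx (pt i) by rw [idx_pt hi],
    toSet_pow_idx, Finset.smul_finset_singleton, Equiv.Perm.smul_def, h]

theorem card_singleton_inter (p : GolayPt) (s : Finset GolayPt) :
    ({p} ∩ s).card = if p ∈ s then 1 else 0 := by
  by_cases h : p ∈ s <;> simp [h]

theorem Pats_cons (S : Finset (Finset GolayPt)) (l : List (Finset (Finset GolayPt)))
    (Y : Finset (Finset GolayPt)) : Pats (S :: l) Y = Pat S Y :: Pats l Y := rfl

theorem Pat_singles (s t : Finset GolayPt) :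
    Pat {s} {t} = 256 ^ (s ∩ t).card := by simp [Pat]

/-- count blocks by their patterns -/
theorem Kind.count_singles (K : Kind) {B : Set (Finset GolayPt)}
    (hB : K.Ys = (fun s : Finset GolayPt => ({s} : Finset (Finset GolayPt))) '' B)
    {X : List (List ℕ)} (hX : X.all okSys = true) {a : Equiv.Perm GolayPt} (ha : a ∈ M24)
    {Xs : List (Finset (Finset GolayPt))} (hXs : (X.map Sys).map (a • ·) = Xs)
    {k : List ℕ} {n : ℕ} (hn : (classOf K.E X k).length = n) :
    {t | t ∈ B ∧ Pats Xs {t} = k}.ncard = n := by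
  rw [← K.ncard hX hn ha hXs,
    ← Set.ncard_image_of_injective {t | t ∈ B ∧ Pats Xs {t} = k} Finset.singleton_injective]
  congr 1
  ext Y
  simp only [Set.mem_image, Set.mem_ofPred_eq, hB]
  constructor
  · rintro ⟨t, ⟨ht, hk'⟩, rfl⟩
    exact ⟨⟨t, ht, rfl⟩, hk'⟩
  · rintro ⟨⟨t, ht, rfl⟩, hk'⟩
    exact ⟨t, ⟨ht, hk'⟩, rfl⟩

end CfsgLib.Golay
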