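import Cfsg.Agent.Lib.Golay.Transitive
import Cfsg.Agent.Lib.Golay.Bound
import Cfsg.Agent.Lib.Golay.TrioData
import Cfsg.Agent.Lib.Golay.FixCount

/-! The trios through an octad. -/
set_option autoImplicit false
set_option linter.all false
set_option maxRecDepth 100000

namespace CfsgLib.Golay.OctTrio

open Cfsg CfsgLib.Golay CfsgLib.Golay.TwoFusion CfsgLib.Golay.Search
open scoped Pointwise

/-- same system as one of the list -/
def inSys (L : List (List ℕ)) (l : List ℕ) : Bool := L.any fun m => sameSys l m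

/-- the elements fixing six base points -/
noncomputable def fix6 : List ℕ := srchP (fun _ _ => true) 1 6 idp

theorem t15_check :
    (trioList.all fun l => !l.contains octO || inSys t15 l) = true ∧
    (t15.all fun l => isTrioM l && l.contains octO) = true ∧
    (t15.map fun l => l.foldr (fun m a => if m == octO then a else m + a * m) 1).Nodup ∧
    t15.length = 15 ∧
    ((List.range 15).all fun i => inM24 (tr1.getD i idp) && (pmask (tr1.getD i idp) octO == octO) &&
      sameSys ((t15.getD 0 []).map (pmask (tr1.getD i idp))) (t15.getD i [])) = true ∧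
    ((List.range 14).all fun i => inM24 (tr2.getD i idp) && (pmask (tr2.getD i idp) octO == octO) &&
      sameSys ((t15.getD 0 []).map (pmask (tr2.getD i idp))) (t15.getD 0 []) &&
      sameSys ((t15.getD 1 []).map (pmask (tr2.getD i idp))) (t15.getD (i + 1) [])) = true := by
  decide +kernel

theorem fix6_check : (fix6.all fun q => t15.all fun l => sameSys (l.map (pmask q)) l) = true := by
  decide +kernel

theorem mem_t15 {T : Finset (Finset GolayPt)} :
    T ∈ trios ∧ toSet octO ∈ T ↔ ∃ i < 15, Sys (t15.getD i []) = T := by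
  obtain ⟨h1, h2, -, hlen, -⟩ := t15_check
  have get : ∀ i (hi : i < 15), t15.getD i [] ∈ t15 := fun i hi => by
    rw [List.getD_eq_getElem _ _ (by omega)]; exact List.getElem_mem _
  simp only [List.all_eq_true, Bool.or_eq_true, Bool.not_eq_true', inSys, List.any_eq_true,
    Bool.and_eq_true, List.contains_iff_mem] at h1 h2
  constructor
  · rintro ⟨hT, ho⟩
    obtain ⟨l, hl, rfl⟩ := (trios_list T).1 hT
    obtain ⟨m, hm, e⟩ := mem_Sys.1 ho
    have hlt : ∀ m ∈ l, m < 16777216 := by
      intro m hm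
      have := (trioList_spec hl).1
      simp only [isTrioM, okSys, Bool.and_eq_true, List.all_eq_true, decide_eq_true_eq] at this
      exact this.1.1.1.1 m hm
    rw [toSet_inj (hlt m hm) (octList_lt octO_check.1) e] at hm
    rcases h1 l hl with h | ⟨l', hl', h⟩
    · simp [List.contains_iff_mem, hm] at h
    · obtain ⟨i, hi, rfl⟩ := List.mem_iff_getElem.1 hl'
      exact ⟨i, by omega, by rw [List.getD_eq_getElem _ _ hi, Sys_eq_of_same h]⟩
  · rintro ⟨i, hi, rfl⟩
    exact ⟨isTrioM_sound (h2 _ (get i hi)).1, mem_Sys.2 ⟨_, (h2 _ (get i hi)).2, rfl⟩⟩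

theorem t15_inj {i j : ℕ} (hi : i < 15) (hj : j < 15)
    (h : Sys (t15.getD i []) = Sys (t15.getD j [])) : i = j := by
  have key : ((List.range 15).all fun i => (List.range 15).all fun j =>
      (i == j) || !sameSys (t15.getD i []) (t15.getD j [])) = true := by decide +kernel
  have := List.all_eq_true.1 (List.all_eq_true.1 key i (List.mem_range.2 hi)) j (List.mem_range.2 hj)
  simp only [Bool.or_eq_true, beq_iff_eq, Bool.not_eq_true'] at this
  rcases this with h' | h'
  · exact h'
  · have hlt : ∀ k < 15, ∀ m ∈ t15.getD k [], m < 16777216 := by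
      intro k hk m hm
      obtain ⟨-, h2, -, hlen, -⟩ := t15_check
      simp only [List.all_eq_true, Bool.and_eq_true] at h2
      have := (h2 (t15.getD k []) (by
        rw [List.getD_eq_getElem _ _ (by omega)]; exact List.getElem_mem _)).1
      simp only [isTrioM, okSys, Bool.and_eq_true, List.all_eq_true, decide_eq_true_eq] at this
      exact this.1.1.1.1 m hm
    rw [Classes.same_of_Sys_eq (hlt i hi) (hlt j hj) h] at h'
    simp at h'

theorem count_std : {T | T ∈ trios ∧ toSet octO ∈ T}.ncard = 15 := by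
  classical
  have e : {T | T ∈ trios ∧ toSet octO ∈ T} =
      ↑((Finset.range 15).image fun i => Sys (t15.getD i [])) := by
    ext T; simp [mem_t15]
  rw [e, Set.ncard_coe_finset, Finset.card_image_of_injOn (fun i hi j hj h =>
    t15_inj (Finset.mem_range.1 hi) (Finset.mem_range.1 hj) h), Finset.card_range]

theorem exists_tr1 {i : ℕ} (hi : i < 15) : ∃ g ∈ M24, g • toSet octO = toSet octO ∧
    g • Sys (t15.getD 0 []) = Sys (t15.getD i []) := by
  obtain ⟨-, -, -, -, h, -⟩ := t15_check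
  have h := List.all_eq_true.1 h i (List.mem_range.2 hi)
  simp only [Bool.and_eq_true, beq_iff_eq] at h
  have hok := okPerm_of_inM24 h.1.1
  exact ⟨_, toPerm_mem_M24 h.1.1, by rw [smul_toSet hok, h.1.2], by
    rw [smul_Sys hok, Sys_eq_of_same h.2]⟩

theorem exists_tr2 {i : ℕ} (hi : i < 15) (h0 : i ≠ 0) : ∃ g ∈ M24, g • toSet octO = toSet octO ∧
    g • Sys (t15.getD 0 []) = Sys (t15.getD 0 []) ∧
    g • Sys (t15.getD 1 []) = Sys (t15.getD i []) := by
  obtain ⟨-, -, -, -, -, h⟩ := t15_check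
  have h := List.all_eq_true.1 h (i - 1) (List.mem_range.2 (by omega))
  simp only [Bool.and_eq_true, beq_iff_eq, show i - 1 + 1 = i by omega] at h
  have hok := okPerm_of_inM24 h.1.1.1
  exact ⟨_, toPerm_mem_M24 h.1.1.1, by rw [smul_toSet hok, h.1.1.2],
    by rw [smul_Sys hok, Sys_eq_of_same h.1.2], by rw [smul_Sys hok, Sys_eq_of_same h.2]⟩

/-- the two-point normalisation -/
theorem pair_to_base {i j : ℕ} (hi : i < 15) (hj : j < 15) (hne : i ≠ j) :
    ∃ g ∈ M24, g • toSet octO = toSet octO ∧ g • Sys (t15.getD 0 []) = Sys (t15.getD i []) ∧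
      g • Sys (t15.getD 1 []) = Sys (t15.getD j []) := by
  obtain ⟨u, hu, uo, u0⟩ := exists_tr1 hi
  have hT : u⁻¹ • Sys (t15.getD j []) ∈ trios ∧ toSet octO ∈ u⁻¹ • Sys (t15.getD j []) := by
    obtain ⟨h1, h2⟩ := mem_t15.2 ⟨j, hj, rfl⟩
    exact ⟨smul_trio (inv_mem hu) h1, by
      rw [Finset.mem_inv_smul_finset_iff, uo]; exact h2⟩
  obtain ⟨k, hk, hkT⟩ := mem_t15.1 hT
  have hk0 : k ≠ 0 := fun h => hne (t15_inj hi hj (by
    rw [h] at hkT; rw [← u0, hkT, smul_inv_smul]))
  obtain ⟨v, hv, vo, v0, v1⟩ := exists_tr2 hk hk0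
  exact ⟨u * v, mul_mem hu hv, by rw [mul_smul, vo, uo], by rw [mul_smul, v0, u0],
    by rw [mul_smul, v1, hkT, smul_inv_smul]⟩

/-- a permutation respecting the partitions of an eight-element set into halves is the identity -/
theorem rigid {α : Type*} [DecidableEq α] {o : Finset α} (ho : o.card = 8) (g : Equiv.Perm α)
    (hg : ∀ p ∈ o, g p ∈ o)
    (h : ∀ t ⊆ o, t.card = 4 → (∀ x ∈ t, g x ∈ t) ∨ ∀ x ∈ t, g x ∈ o \ t) :
    ∀ p ∈ o, g p = p := by
  intro p hp
  by_contra hne
  obtain ⟨r, hr⟩ : ((o.erase p).erase (g p)).Nonempty := by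
    rw [← Finset.card_pos, Finset.card_erase_of_mem (Finset.mem_erase.2 ⟨hne, hg p hp⟩),
      Finset.card_erase_of_mem hp, ho]
    norm_num
  simp only [Finset.mem_erase] at hr
  apply hr.2.1
  apply g.injective
  by_contra hne2
  -- choose a half containing p, r and g r but not g p
  let s : Finset α := {p, r, g r}
  have hs : s ⊆ o.erase (g p) := by
    intro z hz
    simp only [s, Finset.mem_insert, Finset.mem_singleton] at hz
    rw [Finset.mem_erase]
    rcases hz with rfl | rfl | rfl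
    · exact ⟨Ne.symm hne, hp⟩
    · exact ⟨hr.1, hr.2.2⟩
    · exact ⟨hne2, hg r hr.2.2⟩
  have hc : (o.erase (g p)).card = 7 := by rw [Finset.card_erase_of_mem (hg p hp), ho]
  obtain ⟨t, hst, hto, htc⟩ := Finset.exists_subsuperset_card_eq hs (n := 4)
    (Finset.card_le_three.trans (by norm_num)) (by omega)
  rcases h t (hto.trans (Finset.erase_subset _ _)) htc with hh | hh
  · exact (Finset.mem_erase.1 (hto (hh p (hst (by simp [s]))))).1 rfl
  · exact (Finset.mem_sdiff.1 (hh r (hst (by simp [s])))).2 (hst (by simp [s]))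

/-- one item of the kernel data -/
def chkKer (d : List ℕ × List ℕ × List ℕ × ℕ × ℕ) : Bool :=
  isSexM d.1 && inSys t15 d.2.1 && inSys t15 d.2.2.1 && d.2.1.contains d.2.2.2.1 &&
    d.2.2.1.contains d.2.2.2.2 && (d.2.2.2.1 != octO) && (d.2.2.2.2 != octO) &&
    d.1.contains (d.2.2.2.1 &&& d.2.2.2.2) &&
    d.2.1.all (fun a => d.2.2.1.all fun b => (a == octO) || (b == octO) || d.1.contains (a &&& b))

theorem ker_check : kerData.all chkKer = true ∧
    (octT.all fun t => kerData.any fun d => d.1.contains t &&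
      d.1.all fun m => !(m &&& octO == m) || (m == t) || (m == octO ^^^ t)) = true ∧
    (toSet octO).powersetCard 4 ⊆ (octT.map toSet).toFinset := by
  decide +kernel

theorem kernel_fix {g : Equiv.Perm GolayPt} (hg : g ∈ M24) (ho : g • toSet octO = toSet octO)
    (h : ∀ i < 15, g • Sys (t15.getD i []) = Sys (t15.getD i [])) :
    ∀ p ∈ toSet octO, g p = p := by
  classical
  obtain ⟨hk, hc, hsub⟩ := ker_check
  refine rigid (by rw [card_toSet]; exact (mem_octList.1 octO_check.1).2) g (fun p hp => ?_)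
    fun t ht htc => ?_
  · rw [← ho]; exact Finset.smul_mem_smul_finset hp
  obtain ⟨m, hm, rfl⟩ : ∃ m ∈ octT, toSet m = t := by
    have := hsub (Finset.mem_powersetCard.2 ⟨ht, htc⟩)
    simpa using this
  have hm' := List.all_eq_true.1 hc m hm
  simp only [List.any_eq_true, Bool.and_eq_true, List.all_eq_true, Bool.or_eq_true, Bool.not_eq_true',
    beq_iff_eq, beq_eq_false_iff_ne, List.contains_iff_mem] at hm'
  obtain ⟨⟨l, l1, l2, A, B⟩, hd, hml, hin⟩ := hm'
  have hchk := List.all_eq_true.1 hk _ hd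
  simp only [chkKer, inSys, Bool.and_eq_true, List.any_eq_true, List.all_eq_true, Bool.or_eq_true,
    beq_iff_eq, bne_iff_ne, List.contains_iff_mem] at hchk
  obtain ⟨⟨⟨⟨⟨⟨⟨⟨hS, h1⟩, h2⟩, hA⟩, hB⟩, hA0⟩, hB0⟩, hAB⟩, hall⟩ := hchk
  have img : ∀ (L : List ℕ), (∃ m ∈ t15, sameSys L m = true) → ∀ X ∈ L, X ≠ octO →
      ∃ X' ∈ L, X' ≠ octO ∧ g • toSet X = toSet X' := by
    rintro L ⟨M, hM, e⟩ X hX hX0
    obtain ⟨i, hi, rfl⟩ := List.mem_iff_getElem.1 hM
    have hi' : i < 15 := by have := t15_check.2.2.2.1; omega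
    have hfix := h i hi'
    rw [List.getD_eq_getElem _ _ hi, ← Sys_eq_of_same e] at hfix
    obtain ⟨X', hX', e'⟩ := mem_Sys.1
      ((congrArg (g • toSet X ∈ ·) hfix).mp (Finset.smul_mem_smul_finset (mem_Sys.2 ⟨X, hX, rfl⟩)))
    refine ⟨X', hX', fun h0 => hX0 ?_, e'.symm⟩
    rw [h0, ← ho] at e'
    have hlt : X < 16777216 := by
      have h2 := (List.all_eq_true.1 t15_check.2.1 _ (List.getElem_mem hi))
      simp only [isTrioM, okSys, Bool.and_eq_true, List.all_eq_true, decide_eq_true_eq] at h2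
      simp only [sameSys, Bool.and_eq_true, List.all_eq_true, List.contains_iff_mem] at e
      exact h2.1.1.1.1.1 X (e.1 X hX)
    exact toSet_inj hlt (octList_lt octO_check.1) (MulAction.injective g e'.symm)
  obtain ⟨A', hA', hA'0, eA⟩ := img l1 h1 A hA hA0
  obtain ⟨B', hB', hB'0, eB⟩ := img l2 h2 B hB hB0
  have hx : g • toSet (A &&& B) ∈ Sys l := by
    rw [toSet_and, smul_inter', eA, eB, ← toSet_and]
    exact mem_Sys.2 ⟨_, ((hall A' hA' B' hB').resolve_left (by simp [hA'0, hB'0])), rfl⟩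
  have hSs := isSexM_sound hS
  have hgS : g • Sys l = Sys l := by
    refine (sextet_exists_unique _ ?_).unique ⟨smul_sextet hg hSs,
      Finset.smul_mem_smul_finset (mem_Sys.2 ⟨_, hAB, rfl⟩)⟩ ⟨hSs, hx⟩
    rw [Finset.card_smul_finset]; exact hSs.2.1 _ (mem_Sys.2 ⟨_, hAB, rfl⟩)
  obtain ⟨m', hm'l, em⟩ := mem_Sys.1
    ((congrArg (g • toSet m ∈ ·) hgS).mp (Finset.smul_mem_smul_finset (mem_Sys.2 ⟨m, hml, rfl⟩)))
  have hsub' : toSet m' ⊆ toSet octO := by
    rw [em, ← ho]; exact Finset.smul_finset_subset_smul_finset ht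
  have hlt : m' < 16777216 := by
    simp only [isSexM, okSys, Bool.and_eq_true, List.all_eq_true, decide_eq_true_eq] at hS
    exact hS.1.1.1.1 m' hm'l
  rcases hin m' hm'l with (h' | h') | h'
  · exact absurd ((toSet_subset_iff hlt).1 hsub') h'
  · refine Or.inl fun x hx' => ?_
    have := Finset.smul_mem_smul_finset (a := g) hx'
    rwa [← em, h'] at this
  · refine Or.inr fun x hx' => ?_
    have := Finset.smul_mem_smul_finset (a := g) hx'
    rw [← em, h', toSet_xor] at this
    rw [Finset.mem_sdiff]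
    rcases Finset.mem_symmDiff.1 this with ⟨a, b⟩ | ⟨a, b⟩
    · exact ⟨a, b⟩
    · exact absurd (ht a) b

theorem fix6_spec {g : Equiv.Perm GolayPt} (hg : g ∈ M24) (h : ∀ p ∈ toSet octO, g p = p) :
    ∀ i < 15, g • Sys (t15.getD i []) = Sys (t15.getD i []) := by
  intro i hi
  have hB : ∀ j < 6, bp j ∈ toSet octO := by decide +kernel
  have hg6 : g ∈ fixB 6 := ⟨hg, fun j hj => h _ (hB j hj)⟩
  obtain ⟨q, hq, rfl⟩ := srchP_complete (fun _ _ => true) (g := g) 1 6 idp rfl okPerm_idp
    (by rw [toPerm_idp, inv_one, one_mul]; exact hg6) fun _ _ _ => rfl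
  have hqo := (srchP_spec _ 1 6 idp rfl okPerm_idp q hq).1
  have h1 := List.all_eq_true.1 fix6_check q hq
  have h2 := List.all_eq_true.1 h1 (t15.getD i []) (by
    rw [List.getD_eq_getElem _ _ (by have := t15_check.2.2.2.1; omega)]; exact List.getElem_mem _)
  rw [smul_Sys hqo, Sys_eq_of_same h2]

end CfsgLib.Golay.OctTrio
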