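import Cfsg.Agent.Lib.Golay.Transitive

/-! Shapes in which orbit statements are asked. -/
set_option autoImplicit false
set_option linter.all false

namespace CfsgLib.Golay

open Cfsg
open scoped Pointwise

/-- from systems of one block to blocks -/
theorem Kind.orbit_single_eq (K : Kind) {B : Set (Finset GolayPt)}
    (hB : K.Ys = (fun s : Finset GolayPt => ({s} : Finset (Finset GolayPt))) '' B)
    {X : List ℕ} {cls : Cert} (h : chkOrbits K.E [X] cls = true)
    {a : Equiv.Perm GolayPt} (ha : a ∈ M24) {S : Finset (Finset GolayPt)} (hS : a • Sys X = S)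
    {i : ℕ} (hi : i < cls.1.length) :
    ∃ s ∈ B, rootOf cls a i = {s} ∧
      (MulAction.orbit ↥(MulAction.stabilizer M24 S) s).ncard = sizeAt cls i := by
  obtain ⟨hm, -, hc⟩ := K.orbit_eq h ha hS hi
  rw [hB] at hm
  obtain ⟨s, hs, e⟩ := hm
  refine ⟨s, hs, e.symm, ?_⟩
  rw [← e] at hc
  rw [← hc]
  simp only [orbit_single, Set.ncard_image_of_injective _ Finset.singleton_injective]

theorem subset_of_orbit {Ω : Type*} [MulAction M24 Ω] {Ys : Set Ω}
    (hsmul : ∀ g : M24, ∀ Y ∈ Ys, g • Y ∈ Ys) {H : Subgroup M24} {X : Ω} (hX : X ∈ Ys) :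
    MulAction.orbit H X ⊆ Ys := by
  rintro _ ⟨g, rfl⟩; exact hsmul g X hX

theorem Kind.smul' (K : Kind) (g : M24) {Y : Finset (Finset GolayPt)} (hY : Y ∈ K.Ys) :
    g • Y ∈ K.Ys := K.smul g g.2 Y hY

theorem mem_single_orbit {H : Subgroup M24} {s t : Finset GolayPt}
    (h : ({t} : Finset (Finset GolayPt)) ∈ MulAction.orbit H ({s} : Finset (Finset GolayPt))) :
    t ∈ MulAction.orbit H s := by
  rw [orbit_single] at h
  obtain ⟨u, hu, e⟩ := h
  rwa [← Finset.singleton_injective e]

end CfsgLib.Golay
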