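/-! Witness permutations for stabilisers of sextets, hexads and dodecads. -/
set_option autoImplicit false

namespace CfsgLib.Golay.Stabs

/-- exchanges of two tetrads -/
def sexSw : List Nat := [169006559379032777725526712907913648, 141786972279603261112054985402336430, 255368275533574105556329554953950451, 394887952187235946599990278646518095, 350046767738691843084616507943202194, 22932565815451500583934249643018295, 8700058285252490668734614672148535, 12539892445490360727414095838611511, 16366942112607386661092964295673911, 17103830452013841337643442943723575, 17136948164624066446530466120271927, 21066656212487507648246678903392311, 29395921827946026794865043067537463, 29300960555424733075922295095199799, 17742815370228013264922788214507575]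

/-- a dodecad meeting the standard octad in the six points -/
def d0 : Nat := 16319023

/-- an octad meeting it in the other six -/
def o2 : Nat := 8077824

/-- generators of a quaternion group -/
def qA : Nat := 233054687951835244750033064009402400

/-- second -/
def qX : Nat := 304382488815307602047787978285647904

/-- exchanges the dodecad of squares and its complement -/
def swapD : Nat := 1795248432537898728475572672376535

/-- movers in the stabiliser of the extra point -/
def m11mv : List Nat := [962332675657960849177151188578214960, 962703760023902718011195638965913988]

end CfsgLib.Golay.Stabs
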