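import Cfsg.Agent.Lib.Golay.Kinds
import Cfsg.Agent.Lib.Golay.Bound
import Cfsg.Agent.Lib.Golay.Transitive
import Cfsg.Agent.Lib.Golay.FixCount
import Cfsg.Agent.Lib.Golay.Inter
import Cfsg.Agent.Lib.Golay.CertDodOctOk
import Cfsg.Agent.Lib.Golay.StabData

/-! Stabilisers of sextets, octads and hexads. -/
set_option autoImplicit false
set_option linter.all false
set_option maxRecDepth 100000

namespace CfsgLib.Golay.Stabs

open Cfsg CfsgLib.Golay CfsgLib.Golay.TwoFusion CfsgLib.Golay.Search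
open scoped Pointwise

/-! ### sextets -/

/-- the tetrad containing a position -/
def sexBlk (i : ℕ) : ℕ := (sex0.find? fun m => m.testBit i).getD 0

/-- allowed images for elements keeping each tetrad -/
def okS (k v : ℕ) : Bool := (sexBlk (base.getD k 0)).testBit v

/-- keeps each tetrad -/
def keepT (q : ℕ) : Bool := sex0.all fun m => pmask q m == m

/-- keeps each tetrad -/
def Keep (S : Finset (Finset GolayPt)) (g : Equiv.Perm GolayPt) : Prop := ∀ t ∈ S, g • t = t

theorem sexBlk_spec : ∀ k < 7, sexBlk (base.getD k 0) ∈ sex0 ∧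
    (sexBlk (base.getD k 0)).testBit (base.getD k 0) = true := by decide +kernel

theorem sex0_lt : ∀ m ∈ sex0, m < 16777216 := by decide +kernel

theorem keepers :
    (∀ g, (∃ r ∈ elems okS keepT, toPerm r = g) ↔ g ∈ M24 ∧ Keep (Sys sex0) g) ∧
      Nat.card {g : Equiv.Perm GolayPt // g ∈ M24 ∧ Keep (Sys sex0) g} = (elems okS keepT).length := by
  refine card_elems (fun g _ hg i hi => ?_) fun r hr _ => ?_
  · obtain ⟨h1, h2⟩ := sexBlk_spec i hi
    have hb : idx (bp i) = base.getD i 0 := idx_pt (base_lt i hi)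
    have := (congrArg (g (bp i) ∈ ·) (hg _ (mem_Sys.2 ⟨_, h1, rfl⟩))).mp
      (Finset.smul_mem_smul_finset (mem_toSet.2 (by rw [hb]; exact h2)))
    exact mem_toSet.1 this
  · simp only [keepT, List.all_eq_true, beq_iff_eq]
    constructor
    · intro h t ht
      obtain ⟨m, hm, rfl⟩ := mem_Sys.1 ht
      rw [smul_toSet hr, h m hm]
    · intro h m hm
      have e := h _ (mem_Sys.2 ⟨m, hm, rfl⟩)
      rw [smul_toSet hr] at e
      refine toSet_inj ?_ (sex0_lt m hm) e
      exact Classes.pmask_lt hr m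

/-- an involution or the identity -/
def sqB (q : ℕ) : Bool := isIdB (comp q q)

/-- the product of two of the list is again one -/
def closedSq (L : List ℕ) : Bool := L.all fun a => L.all fun b => sqB (comp a b)

theorem sex_checks : (elems okS keepT).length = 192 ∧
    ((elems okS keepT).filter sqB).length = 64 ∧
    closedSq ((elems okS keepT).filter sqB) = true ∧
    (sexSw.all inM24 && sex0.all fun i => sex0.all fun j => (i == j) || sexSw.any fun w =>
      sex0.all fun k => pmask w k == (if k == i then j else if k == j then i else k)) = true := by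
  decide +kernel

theorem keep_mul_sq {a b : Equiv.Perm GolayPt} (ha : a ∈ M24) (hb : b ∈ M24)
    (ka : Keep (Sys sex0) a) (kb : Keep (Sys sex0) b) (sa : a * a = 1) (sb : b * b = 1) :
    a * b * (a * b) = 1 := by
  obtain ⟨p, hp, rfl⟩ := (keepers.1 a).2 ⟨ha, ka⟩
  obtain ⟨q, hq, rfl⟩ := (keepers.1 b).2 ⟨hb, kb⟩
  have hpo := (elems_spec hp).1
  have hqo := (elems_spec hq).1
  have hmem : ∀ r, r ∈ elems okS keepT → toPerm r * toPerm r = 1 →
      r ∈ (elems okS keepT).filter sqB := fun r hr h => List.mem_filter.2 ⟨hr, by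
    have hro := (elems_spec hr).1
    rw [sqB, isIdB_iff (okPerm_comp hro hro), comp_spec hro hro (okPerm_comp hro hro), h]⟩
  have hc := List.all_eq_true.1 (List.all_eq_true.1 sex_checks.2.2.1 p (hmem p hp sa)) q (hmem q hq sb)
  have hpq := okPerm_comp hpo hqo
  rw [sqB, isIdB_iff (okPerm_comp hpq hpq), comp_spec hpq hpq (okPerm_comp hpq hpq),
    comp_spec hpo hqo hpq] at hc
  exact hc

theorem card_keep_sq :
    Nat.card {g : Equiv.Perm GolayPt // g ∈ M24 ∧ Keep (Sys sex0) g ∧ g * g = 1} = 64 := by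
  classical
  have hnd : (((elems okS keepT).filter sqB).map toPerm).Nodup :=
    (srchP_nodup okS 7 0 idp rfl okPerm_idp).sublist
      ((List.filter_sublist.trans List.filter_sublist).map _)
  rw [← sex_checks.2.1, ← List.length_map (as := (elems okS keepT).filter sqB) toPerm,
    ← List.toFinset_card_of_nodup hnd, ← Nat.card_eq_finsetCard]
  refine Nat.card_congr (Equiv.subtypeEquivRight fun g => ?_)
  simp only [List.mem_toFinset, List.mem_map, List.mem_filter]
  constructor
  · rintro ⟨hg, hk, hs⟩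
    obtain ⟨r, hr, rfl⟩ := (keepers.1 g).2 ⟨hg, hk⟩
    have hro := (elems_spec hr).1
    exact ⟨r, ⟨hr, by rw [sqB, isIdB_iff (okPerm_comp hro hro), comp_spec hro hro (okPerm_comp hro hro), hs]⟩, rfl⟩
  · rintro ⟨r, ⟨hr, hs⟩, rfl⟩
    have hro := (elems_spec hr).1
    rw [sqB, isIdB_iff (okPerm_comp hro hro), comp_spec hro hro (okPerm_comp hro hro)] at hs
    obtain ⟨h1, h2⟩ := (keepers.1 _).1 ⟨r, hr, rfl⟩
    exact ⟨h1, h2, hs⟩

/-- conjugating the keepers of a sextet -/
theorem keep_conj {a g : Equiv.Perm GolayPt} (S : Finset (Finset GolayPt)) :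
    Keep (a • S) (a * g * a⁻¹) ↔ Keep S g := by
  constructor
  · intro h t ht
    have := h (a • t) (Finset.smul_mem_smul_finset ht)
    rw [mul_smul, mul_smul, inv_smul_smul, smul_left_cancel_iff] at this
    exact this
  · intro h t ht
    obtain ⟨u, hu, rfl⟩ := Finset.mem_smul_finset.1 ht
    rw [mul_smul, mul_smul, inv_smul_smul, h u hu]

theorem card_conj {a : Equiv.Perm GolayPt} (ha : a ∈ M24) {P Q : Equiv.Perm GolayPt → Prop}
    (h : ∀ g, P g ↔ Q (a * g * a⁻¹)) :
    Nat.card {g : Equiv.Perm GolayPt // g ∈ M24 ∧ P g} =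
      Nat.card {g : Equiv.Perm GolayPt // g ∈ M24 ∧ Q g} := by
  refine Nat.card_congr ((MulAut.conj a).toEquiv.subtypeEquiv fun g => ?_)
  show g ∈ M24 ∧ P g ↔ a * g * a⁻¹ ∈ M24 ∧ Q (a * g * a⁻¹)
  rw [h g]
  refine and_congr_left' ⟨fun hg => mul_mem (mul_mem ha hg) (inv_mem ha), fun hg => ?_⟩
  have := mul_mem (mul_mem (inv_mem ha) hg) ha
  rwa [show a⁻¹ * (a * g * a⁻¹) * a = g by group] at this

theorem sextet_perms (σ : Equiv.Perm ↥(Sys sex0)) :
    ∃ g ∈ M24, ∀ t : ↥(Sys sex0), g • (t : Finset GolayPt) = σ t := by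
  classical
  have h := sex_checks.2.2.2
  simp only [Bool.and_eq_true, List.all_eq_true, Bool.or_eq_true, List.any_eq_true, beq_iff_eq] at h
  induction σ using Equiv.Perm.swap_induction_on with
  | one => exact ⟨1, one_mem _, fun t => by simp⟩
  | swap_mul f x y hxy ih =>
    obtain ⟨g, hg, hgf⟩ := ih
    obtain ⟨i, hi, ei⟩ := mem_Sys.1 x.2
    obtain ⟨j, hj, ej⟩ := mem_Sys.1 y.2
    rcases h.2 i hi j hj with e | ⟨w, hw, e⟩
    · exact absurd (Subtype.ext (by rw [← ei, ← ej, e])) hxy
    · have hwo := okPerm_of_inM24 (h.1 w hw)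
      refine ⟨toPerm w * g, mul_mem (toPerm_mem_M24 (h.1 w hw)) hg, fun t => ?_⟩
      rw [mul_smul, hgf, Equiv.Perm.mul_apply]
      obtain ⟨k, hk, ek⟩ := mem_Sys.1 (f t).2
      rw [← ek, smul_toSet hwo, e k hk]
      by_cases hx : k = i
      · rw [if_pos hx, show f t = x from Subtype.ext (by rw [← ek, ← ei, hx]), Equiv.swap_apply_left, ← ej]
      rw [if_neg hx]
      by_cases hy : k = j
      · rw [if_pos hy, show f t = y from Subtype.ext (by rw [← ek, ← ej, hy]), Equiv.swap_apply_right, ← ei]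
      rw [if_neg hy, Equiv.swap_apply_of_ne_of_ne, ek]
      · intro e'; rw [e', ← ei] at ek; exact hx (toSet_inj (sex0_lt k hk) (sex0_lt i hi) ek)
      · intro e'; rw [e', ← ej] at ek; exact hy (toSet_inj (sex0_lt k hk) (sex0_lt j hj) ek)

/-! ### the octad stabiliser -/

/-- restriction to an invariant set -/
def restr (o : Finset GolayPt) : ↥(M24 ⊓ MulAction.stabilizer (Equiv.Perm GolayPt) o) →* Equiv.Perm ↥o where
  toFun g := (g : Equiv.Perm GolayPt).subtypePerm fun x => by
    have h : (g : Equiv.Perm GolayPt) • o = o := MulAction.mem_stabilizer_iff.1 g.2.2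
    generalize (g : Equiv.Perm GolayPt) = a at h
    conv_lhs => rw [← h]
    exact Finset.smul_mem_smul_finset_iff a
  map_one' := Equiv.ext fun _ => rfl
  map_mul' _ _ := Equiv.ext fun _ => rfl

theorem restr_apply (o : Finset GolayPt) (g : ↥(M24 ⊓ MulAction.stabilizer (Equiv.Perm GolayPt) o))
    (x : ↥o) : ((restr o g x : ↥o) : GolayPt) = (g : Equiv.Perm GolayPt) x := rfl

theorem card_fix_octad {o : Finset GolayPt} (ho : o ∈ octads) :
    Nat.card {g : Equiv.Perm GolayPt // g ∈ M24 ∧ ∀ p ∈ o, g p = p} = 16 := by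
  obtain ⟨a, ha, rfl⟩ := exists_octO ho
  rw [← card_conj (P := fun g => ∀ p ∈ toSet octO, g p = p) ha, ← card_fixB_two.2.2.2.2.2]
  · exact Nat.card_congr (Equiv.subtypeEquivRight fun g =>
      ⟨fun h => mem_fixB_six h.1 h.2, fun h => ⟨h.1, (fixB_six_spec h).1⟩⟩)
  · intro g
    constructor
    · intro h p hp
      obtain ⟨q, hq, rfl⟩ := Finset.mem_smul_finset.1 hp
      rw [Equiv.Perm.smul_def, Equiv.Perm.mul_apply, Equiv.Perm.mul_apply, Equiv.Perm.inv_def,
        Equiv.symm_apply_apply, h q hq]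
    · intro h p hp
      have := h (a • p) (Finset.smul_mem_smul_finset hp)
      rw [Equiv.Perm.smul_def, Equiv.Perm.mul_apply, Equiv.Perm.mul_apply, Equiv.Perm.inv_def,
        Equiv.symm_apply_apply] at this
      exact a.injective this

theorem card_octad_group {o : Finset GolayPt} (ho : o ∈ octads) :
    Nat.card ↥(M24 ⊓ MulAction.stabilizer (Equiv.Perm GolayPt) o) = 322560 := by
  rw [← card_stab_octad ho]
  exact Nat.card_congr ⟨fun g => ⟨⟨g.1, g.2.1⟩, g.2.2⟩, fun g => ⟨g.1.1, g.1.2, g.2⟩,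
    fun _ => rfl, fun _ => rfl⟩

theorem range_restr {o : Finset GolayPt} (ho : o ∈ octads) :
    (restr o).range = alternatingGroup ↥o := by
  classical
  apply Equiv.Perm.eq_alternatingGroup_of_index_eq_two
  have hker : Nat.card ↥(restr o).ker = 16 := by
    rw [← card_fix_octad ho]
    refine Nat.card_congr
      { toFun := fun g => ⟨g.1.1, g.1.2.1, fun p hp =>
          (restr_apply o g.1 ⟨p, hp⟩).symm.trans (congrArg Subtype.val
            (Equiv.congr_fun (MonoidHom.mem_ker.1 g.2) ⟨p, hp⟩))⟩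
        invFun := fun g => ⟨⟨g.1, g.2.1, MulAction.mem_stabilizer_iff.2
          (Finset.eq_of_subset_of_card_le (fun z hz => by
            obtain ⟨w, hw, rfl⟩ := Finset.mem_smul_finset.1 hz
            rw [Equiv.Perm.smul_def, g.2.2 w hw]; exact hw) (by rw [Finset.card_smul_finset]))⟩,
          MonoidHom.mem_ker.2 (Equiv.ext fun x => Subtype.ext (g.2.2 x.1 x.2))⟩
        left_inv := fun _ => rfl
        right_inv := fun _ => rfl }
  have h1 := Subgroup.card_eq_card_quotient_mul_card_subgroup (restr o).ker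
  rw [Nat.card_congr (QuotientGroup.quotientKerEquivRange (restr o)).toEquiv, hker,
    card_octad_group ho] at h1
  have h2 := Subgroup.card_mul_index (restr o).range
  rw [Nat.card_perm, Nat.card_eq_finsetCard, card_octad ho,
    show Nat.factorial 8 = 40320 by rfl, show Nat.card ↥(restr o).range = 20160 by omega] at h2
  omega

/-! ### a point outside an octad -/

theorem regular_check : ((List.range 24).all fun i => octO.testBit i ||
    ((List.range 24).all fun j => octO.testBit j || (tr 6).any fun p => img p i == j)) = true ∧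
    (tr 6).all (fun p => isIdB p || (List.range 24).all fun i => octO.testBit i || !(img p i == i)) = true := by
  decide +kernel

theorem exists_tr6 {g : Equiv.Perm GolayPt} (hg : g ∈ fixB 6) : ∃ p ∈ tr 6, toPerm p = g := by
  obtain ⟨p, hp, e⟩ := exists_tr (show 6 < 7 by norm_num) (apply_bp_mem_allow (by norm_num) hg)
  have hp' := toPerm_tr_mem (show 6 < 7 by norm_num) hp
  have h2 := mul_mem (inv_mem hp') hg
  refine ⟨p, hp, inv_mul_eq_one.1 (fixB_seven ⟨h2.1, fun i hi => ?_⟩)⟩
  rcases Nat.lt_succ_iff_lt_or_eq.1 hi with h' | h'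
  · exact h2.2 i h'
  · subst h'
    rw [Equiv.Perm.mul_apply, Equiv.Perm.inv_eq_iff_eq, e]

theorem octad_regular {o : Finset GolayPt} (ho : o ∈ octads) {p q : GolayPt} (hp : p ∉ o)
    (hq : q ∉ o) : (∃ g ∈ M24, (∀ x ∈ o, g x = x) ∧ g p = q) ∧
      ∀ g ∈ M24, (∀ x ∈ o, g x = x) → g p = p → g = 1 := by
  obtain ⟨a, ha, rfl⟩ := exists_octO ho
  rw [← Finset.inv_smul_mem_iff] at hp hq
  have hp' : octO.testBit (idx (a⁻¹ • p)) = false := by
    rw [Bool.eq_false_iff]; exact fun h => hp (mem_toSet.2 h)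
  have hq' : octO.testBit (idx (a⁻¹ • q)) = false := by
    rw [Bool.eq_false_iff]; exact fun h => hq (mem_toSet.2 h)
  obtain ⟨h1, h2⟩ := regular_check
  constructor
  · have h := List.all_eq_true.1 h1 (idx (a⁻¹ • p)) (List.mem_range.2 (idx_lt _))
    rw [hp', Bool.false_or] at h
    have h' := List.all_eq_true.1 h (idx (a⁻¹ • q)) (List.mem_range.2 (idx_lt _))
    simp only [hq', Bool.false_or, List.any_eq_true, beq_iff_eq] at h'
    obtain ⟨r, hr, e⟩ := h'
    have hm := toPerm_tr_mem (k := 6) (by norm_num) hr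
    have e' : toPerm r (a⁻¹ • p) = a⁻¹ • q := by
      rw [← idx_inj, idx_toPerm (tr_ok (by norm_num) hr)]; exact e
    refine ⟨a * toPerm r * a⁻¹, mul_mem (mul_mem ha hm.1) (inv_mem ha), fun x hx => ?_, ?_⟩
    · obtain ⟨y, hy, rfl⟩ := Finset.mem_smul_finset.1 hx
      rw [Equiv.Perm.smul_def, Equiv.Perm.mul_apply, Equiv.Perm.mul_apply, Equiv.Perm.inv_def,
        Equiv.symm_apply_apply, (fixB_six_spec hm).1 y hy]
    · rw [Equiv.Perm.mul_apply, Equiv.Perm.mul_apply]
      exact (congrArg a e').trans (smul_inv_smul a q)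
  · intro g hg hfix hgp
    have hg6 : a⁻¹ * g * a ∈ fixB 6 := mem_fixB_six (mul_mem (mul_mem (inv_mem ha) hg) ha)
      fun y hy => by
        rw [Equiv.Perm.mul_apply, Equiv.Perm.mul_apply, Equiv.Perm.inv_eq_iff_eq]
        exact hfix _ (Finset.smul_mem_smul_finset hy)
    obtain ⟨r, hr, e⟩ := exists_tr6 hg6
    have hro := tr_ok (show 6 < 7 by norm_num) hr
    have h := List.all_eq_true.1 h2 r hr
    rw [Bool.or_eq_true] at h
    rcases h with h | h
    · rw [(isIdB_iff hro).1 h] at e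
      calc g = a * (a⁻¹ * g * a) * a⁻¹ := by group
        _ = 1 := by rw [← e]; group
    · have h' := List.all_eq_true.1 h (idx (a⁻¹ • p)) (List.mem_range.2 (idx_lt _))
      simp only [hp', Bool.false_or, Bool.not_eq_true', beq_eq_false_iff_ne] at h'
      refine absurd ?_ h'
      rw [← idx_toPerm hro, e, idx_inj, Equiv.Perm.smul_def]
      simp only [Equiv.Perm.mul_apply, Equiv.Perm.inv_def, Equiv.apply_symm_apply]
      rw [hgp]

/-! ### hexads -/

theorem hexad_checks : toSet d0 ∈ dodecads ∧ toSet octO ∩ toSet d0 = (Finset.range 6).image bp ∧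
    toSet o2 ∈ octads ∧ toSet o2 ∩ toSet d0 = toSet d0 \ (Finset.range 6).image bp ∧
    (tr 6).all (fun p => isIdB p || !(pmask p d0 == d0)) = true :=
  ⟨toSet_mem_dodecads (mem_dodList.2 (by decide +kernel)), by decide +kernel,
    toSet_mem_octads (mem_octList.2 (by decide +kernel)), by decide +kernel, by decide +kernel⟩

/-- move a dodecad and one of its hexads to the standard ones -/
theorem hexad_std {d C : Finset GolayPt} (hd : d ∈ dodecads) (hC : C ∈ hexadsOn d) :
    ∃ a ∈ M24, a • toSet d0 = d ∧ a • (toSet octO ∩ toSet d0) = C := by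
  obtain ⟨h6, o, ho, rfl⟩ := hC
  obtain ⟨u, hu, eu⟩ := dodecad_transitive hexad_checks.1 hd
  obtain ⟨v, hv, ev⟩ := exists_dodD hexad_checks.1
  have hc0 : (toSet d0 ∩ toSet octO).card = 6 := by
    rw [Finset.inter_comm, hexad_checks.2.1]; decide +kernel
  obtain ⟨g, hg, hgd, hgo⟩ := octKind.single_trans rfl certDodOct_ok hv (d := toSet d0)
    (by rw [Sys_single, Finset.smul_finset_singleton, ev]) (toSet_mem_octads octO_check.1)
    (smul_octad (inv_mem hu) ho) (by
      rw [hc0, show toSet d0 = u⁻¹ • d by rw [← eu, inv_smul_smul], ← smul_inter',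
        Finset.card_smul_finset, Finset.inter_comm, h6])
  refine ⟨u * g, mul_mem hu hg, by rw [mul_smul, hgd, eu], ?_⟩
  rw [mul_smul, smul_inter', hgd, hgo, smul_inter', eu, smul_inv_smul]

theorem hexad_faithful_std {g : Equiv.Perm GolayPt} (hg : g ∈ M24) (hd : g • toSet d0 = toSet d0)
    (h : ∀ p ∈ toSet octO ∩ toSet d0, g p = p) : g = 1 := by
  have hg6 : g ∈ fixB 6 := ⟨hg, fun i hi => h _ (by
    rw [hexad_checks.2.1]; exact Finset.mem_image.2 ⟨i, Finset.mem_range.2 hi, rfl⟩)⟩
  obtain ⟨r, hr, e⟩ := exists_tr6 hg6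
  have hro := tr_ok (show 6 < 7 by norm_num) hr
  have hc := List.all_eq_true.1 hexad_checks.2.2.2.2 r hr
  rw [Bool.or_eq_true] at hc
  rcases hc with hc | hc
  · rw [← e, (isIdB_iff hro).1 hc]
  · rw [← e, smul_toSet hro] at hd
    rw [toSet_inj (Classes.pmask_lt hro _) (by decide +kernel) hd] at hc
    simp at hc

theorem compl_hexad {d C : Finset GolayPt} (hd : d ∈ dodecads) (hC : C ∈ hexadsOn d) :
    d \ C ∈ hexadsOn d := by
  obtain ⟨a, ha, ed, eC⟩ := hexad_std hd hC
  obtain ⟨-, e1, ho2, e2, -⟩ := hexad_checks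
  refine ⟨?_, a • toSet o2, smul_octad ha ho2, ?_⟩
  · have hsub : C ⊆ d := by
      obtain ⟨-, o, -, rfl⟩ := hC; exact Finset.inter_subset_right
    rw [Finset.card_sdiff_of_subset hsub, card_dodecad hd, hC.1]
  · rw [← ed, ← eC, ← smul_inter', e2, e1, Finset.smul_finset_sdiff]

theorem hexad_faithful {d C : Finset GolayPt} (hd : d ∈ dodecads) (hC : C ∈ hexadsOn d)
    {g : Equiv.Perm GolayPt} (hg : g ∈ M24) (hgd : g • d = d) (h : ∀ p ∈ C, g p = p) : g = 1 := by
  obtain ⟨a, ha, ed, eC⟩ := hexad_std hd hC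
  have h1 := hexad_faithful_std (mul_mem (mul_mem (inv_mem ha) hg) ha)
    (by rw [mul_smul, mul_smul, ed, hgd, ← ed, inv_smul_smul]) fun p hp => by
      rw [Equiv.Perm.mul_apply, Equiv.Perm.mul_apply, Equiv.Perm.inv_eq_iff_eq]
      exact h _ (eC ▸ Finset.smul_mem_smul_finset hp)
  calc g = a * (a⁻¹ * g * a) * a⁻¹ := by group
    _ = 1 := by rw [h1]; group

theorem hexad_octad_unique {d C : Finset GolayPt} (hC : C ∈ hexadsOn d) {o : Finset GolayPt}
    (ho : o ∈ octads) (e : o ∩ d = C) {g : Equiv.Perm GolayPt} (hg : g ∈ M24) (hd : g • d = d) :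
    g • C = C ↔ g • o = o := by
  constructor
  · intro h
    refine octad_unique (smul_octad hg ho) ho ?_
    calc 5 ≤ C.card := by rw [hC.1]; norm_num
      _ ≤ _ := Finset.card_le_card fun x hx => by
        refine Finset.mem_inter.2 ⟨?_, (Finset.mem_inter.1 (e ▸ hx)).1⟩
        rw [← h] at hx
        obtain ⟨y, hy, rfl⟩ := Finset.mem_smul_finset.1 hx
        exact Finset.smul_mem_smul_finset (Finset.mem_inter.1 (e ▸ hy)).1
  · intro h
    rw [← e, smul_inter', h, hd]

theorem card_hexad_stab {d C : Finset GolayPt} (hd : d ∈ dodecads) (hC : C ∈ hexadsOn d) :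
    Nat.card ↥(MulAction.stabilizer M24 d ⊓ MulAction.stabilizer M24 C) = 720 := by
  obtain ⟨h6, o, ho, e⟩ := hC
  obtain ⟨v, hv, ev⟩ := exists_dodD hd
  have hi : ∃ i < certDodOct.1.length, keyOf [[dodD]] (rootAt certDodOct i) = [256 ^ 6] ∧
      sizeAt certDodOct i = 132 := by decide +kernel
  obtain ⟨i, hi, hk, hn⟩ := hi
  have h := octKind.single_stab rfl certDodOct_ok hv (d := d)
    (by rw [Sys_single, Finset.smul_finset_singleton, ev]) ho hi hk hn
    (by rw [Finset.inter_comm, e, h6])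
  rw [card_stab_dodecad hd] at h
  have he : MulAction.stabilizer M24 d ⊓ MulAction.stabilizer M24 o =
      MulAction.stabilizer M24 d ⊓ MulAction.stabilizer M24 C := by
    ext g
    simp only [Subgroup.mem_inf, MulAction.mem_stabilizer_iff]
    exact and_congr_right fun hgd => (hexad_octad_unique ⟨h6, o, ho, e⟩ ho e g.2 hgd).symm
  rw [he] at h
  omega

end CfsgLib.Golay.Stabs
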