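import Cfsg.Agent.Lib.Golay.Subsets
import Cfsg.Agent.Lib.Golay.Stabs
import Cfsg.Agent.Lib.Golay.PairData

/-! Pairs avoiding two points, relative to a given pair; two octads meeting twice. -/
set_option autoImplicit false
set_option linter.all false
set_option maxRecDepth 100000

namespace CfsgLib.Golay.PairOrb

open Cfsg CfsgLib.Golay CfsgLib.Golay.TwoFusion CfsgLib.Golay.Search
open scoped Pointwise

/-- the standard pair -/
def s0 : ℕ := 6

/-- pairs avoiding the two fixed points -/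
def avoidB (m : ℕ) : Bool := !m.testBit 23 && !m.testBit 0

/-- inside an octad with the two fixed points and the standard pair -/
noncomputable def coplB (m : ℕ) : Bool := octList.any fun o => o &&& (8388615 ||| m) == (8388615 ||| m)

/-- class of a pair -/
noncomputable def keyB (m : ℕ) : ℕ := 2 * pc (m &&& s0) + (if coplB m then 1 else 0)

/-- one item -/
def chkP (e : ℕ × ℕ × ℕ) : Bool :=
  inM24 e.2.2 && img e.2.2 23 == 23 && img e.2.2 0 == 0 && pmask e.2.2 s0 == s0 &&
    decide (e.2.1 < roots.length) && pmask e.2.2 (roots.getD e.2.1 0) == e.1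

theorem cert_check : cert.all chkP = true ∧
    ((set2List.filter avoidB).all fun m => cert.any fun e => e.1 == m) = true ∧
    (roots.map keyB).Nodup ∧
    ((set2List.filter avoidB).countP fun m => (m &&& s0 == 0) && coplB m) = 30 ∧
    ((set2List.filter avoidB).countP fun m => (m &&& s0 == 0) && !coplB m) = 160 := by
  decide +kernel

/-- the coplanarity predicate -/
def Copl (p q : GolayPt) (s t : Finset GolayPt) : Prop :=
  ∃ o ∈ octads, p ∈ o ∧ q ∈ o ∧ s ∪ t ⊆ o

theorem std_facts : toSet 8388615 = {none, some 0} ∪ toSet s0 ∧ pt 23 = none ∧ pt 0 = some 0 := by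
  decide +kernel

theorem copl_std {m : ℕ} (hm : m < 16777216) :
    Copl none (some 0) (toSet s0) (toSet m) ↔ coplB m = true := by
  have hlt : 8388615 ||| m < 16777216 := Nat.or_lt_two_pow (n := 24) (by norm_num) hm
  have hiff : ∀ o : Finset GolayPt, (none ∈ o ∧ (some 0 : GolayPt) ∈ o ∧ toSet s0 ∪ toSet m ⊆ o) ↔
      toSet (8388615 ||| m) ⊆ o := fun o => by
    rw [toSet_or, std_facts.1]
    simp only [Finset.union_subset_iff, Finset.insert_subset_iff, Finset.singleton_subset_iff]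
    tauto
  simp only [Copl, coplB, List.any_eq_true, beq_iff_eq]
  constructor
  · rintro ⟨o, ho, h⟩
    obtain ⟨k, hk, rfl⟩ := exists_mask_octad ho
    have := (toSet_subset_iff hlt).1 ((hiff _).1 h)
    exact ⟨k, hk, by rw [Nat.land_comm]; exact this⟩
  · rintro ⟨k, hk, h⟩
    exact ⟨toSet k, toSet_mem_octads hk, (hiff _).2 ((toSet_subset_iff hlt).2 (by rw [Nat.land_comm]; exact h))⟩

theorem avoid_iff (m : ℕ) :
    avoidB m = true ↔ (none : GolayPt) ∉ toSet m ∧ (some 0 : GolayPt) ∉ toSet m := by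
  simp only [avoidB, Bool.and_eq_true, Bool.not_eq_true', mem_toSet, Bool.not_eq_true]
  rfl

theorem pairs_list (t : Finset GolayPt) :
    (t.card = 2 ∧ none ∉ t ∧ (some 0 : GolayPt) ∉ t) ↔
      ∃ m ∈ set2List.filter avoidB, toSet m = t := by
  constructor
  · rintro ⟨h2, h1, h0⟩
    obtain ⟨m, hm, rfl⟩ := (Set.ext_iff.1 set2_eq t).1 h2
    exact ⟨m, List.mem_filter.2 ⟨hm, (avoid_iff m).2 ⟨h1, h0⟩⟩, rfl⟩
  · rintro ⟨m, hm, rfl⟩
    obtain ⟨hm, ha⟩ := List.mem_filter.1 hm
    exact ⟨(Set.ext_iff.1 set2_eq _).2 ⟨m, hm, rfl⟩, (avoid_iff m).1 ha⟩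

theorem count_std (P : Finset GolayPt → Prop) (Q : ℕ → Bool) {n : ℕ}
    (hPQ : ∀ m, m < 16777216 → (P (toSet m) ↔ Q m = true))
    (hn : (set2List.filter avoidB).countP Q = n) :
    {t : Finset GolayPt | (t.card = 2 ∧ none ∉ t ∧ (some 0 : GolayPt) ∉ t) ∧ P t}.ncard = n := by
  classical
  have e : {t : Finset GolayPt | (t.card = 2 ∧ none ∉ t ∧ (some 0 : GolayPt) ∉ t) ∧ P t} =
      ↑((((set2List.filter avoidB).filter Q).map toSet).toFinset) := by
    ext t
    simp only [Set.mem_ofPred_eq, Finset.mem_coe, List.mem_toFinset, List.mem_map]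
    rw [pairs_list]
    constructor
    · rintro ⟨⟨m, hm, rfl⟩, hP⟩
      exact ⟨m, List.mem_filter.2 ⟨hm, (hPQ m (set2_lt (List.mem_filter.1 hm).1).1).1 hP⟩, rfl⟩
    · rintro ⟨m, hm, rfl⟩
      obtain ⟨hm, hQ⟩ := List.mem_filter.1 hm
      exact ⟨⟨m, hm, rfl⟩, (hPQ m (set2_lt (List.mem_filter.1 hm).1).1).2 hQ⟩
  have hnd : set2List.Nodup := by decide +kernel
  rw [e, Set.ncard_coe_finset, List.toFinset_card_of_nodup
    (List.Nodup.map_on (fun a ha b hb h => toSet_inj
      (set2_lt (List.mem_filter.1 (List.mem_filter.1 ha).1).1).1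
      (set2_lt (List.mem_filter.1 (List.mem_filter.1 hb).1).1).1 h) ((hnd.filter _).filter _)),
    List.length_map, ← List.countP_eq_length_filter, hn]

theorem disj_iff {m : ℕ} (hm : m < 16777216) : Disjoint (toSet s0) (toSet m) ↔ (m &&& s0 == 0) = true := by
  rw [Finset.disjoint_iff_inter_eq_empty, ← toSet_and, beq_iff_eq, Nat.land_comm, ← toSet_zero]
  exact ⟨fun h => toSet_inj (lt_of_le_of_lt Nat.and_le_left hm) (by norm_num) h, fun h => by rw [h]⟩

theorem trans_std {m m' : ℕ} (hm : m ∈ set2List.filter avoidB) (hm' : m' ∈ set2List.filter avoidB)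
    (hi : (toSet s0 ∩ toSet m).card = (toSet s0 ∩ toSet m').card)
    (hc : Copl none (some 0) (toSet s0) (toSet m) ↔ Copl none (some 0) (toSet s0) (toSet m')) :
    ∃ g ∈ M24, g none = none ∧ g (some 0) = some 0 ∧ g • toSet s0 = toSet s0 ∧ g • toSet m = toSet m' := by
  obtain ⟨h1, h2, h3, -, -⟩ := cert_check
  have get : ∀ m ∈ set2List.filter avoidB, ∃ i < roots.length, ∃ g ∈ M24, g none = none ∧
      g (some 0) = some 0 ∧ g • toSet s0 = toSet s0 ∧ g • toSet (roots.getD i 0) = toSet m := by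
    intro m hm
    have h := List.all_eq_true.1 h2 m hm
    simp only [List.any_eq_true, beq_iff_eq] at h
    obtain ⟨⟨m0, i, r⟩, he, rfl⟩ := h
    have hc' := List.all_eq_true.1 h1 _ he
    simp only [chkP, Bool.and_eq_true, beq_iff_eq, decide_eq_true_eq] at hc'
    obtain ⟨⟨⟨⟨⟨hr, hn⟩, h0⟩, hs⟩, hi⟩, he'⟩ := hc'
    have hok := okPerm_of_inM24 hr
    exact ⟨i, hi, toPerm r, toPerm_mem_M24 hr, idx_inj.1 (by rw [idx_toPerm hok]; exact hn),
      idx_inj.1 (by rw [idx_toPerm hok]; exact h0), by rw [smul_toSet hok, hs],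
      by rw [smul_toSet hok, he']⟩
  obtain ⟨i, hil, g, hg, gn, g0, gs, gm⟩ := get m hm
  obtain ⟨j, hjl, h, hh, hn, h0, hs, hmm⟩ := get m' hm'
  have hrlt : ∀ i < roots.length, roots.getD i 0 < 16777216 := by decide +kernel
  have key : ∀ (k : Equiv.Perm GolayPt) (i : ℕ), i < roots.length → k ∈ M24 → k none = none →
      k (some 0) = some 0 → k • toSet s0 = toSet s0 → ∀ n : ℕ, k • toSet (roots.getD i 0) = toSet n →
      (toSet s0 ∩ toSet (roots.getD i 0)).card = (toSet s0 ∩ toSet n).card ∧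
      (Copl none (some 0) (toSet s0) (toSet (roots.getD i 0)) ↔ Copl none (some 0) (toSet s0) (toSet n)) := by
    intro k i _ hk kn k0 ks n kn'
    refine ⟨by rw [← kn', ← Finset.card_smul_finset k, smul_inter', ks], ?_⟩
    have mv : ∀ (o : Finset GolayPt) (k : Equiv.Perm GolayPt) (x : GolayPt), k x = x → x ∈ o → x ∈ k • o :=
      fun o k x e h => by have := Finset.smul_mem_smul_finset (a := k) h; rwa [Equiv.Perm.smul_def, e] at this
    constructor
    · rintro ⟨o, ho, a, b, c⟩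
      refine ⟨k • o, smul_octad hk ho, mv o k _ kn a, mv o k _ k0 b, ?_⟩
      rw [← ks, ← kn', ← Finset.smul_finset_union]
      exact Finset.smul_finset_subset_smul_finset c
    · rintro ⟨o, ho, a, b, c⟩
      refine ⟨k⁻¹ • o, smul_octad (inv_mem hk) ho, mv o k⁻¹ _ (Equiv.Perm.inv_eq_iff_eq.2 kn.symm) a,
        mv o k⁻¹ _ (Equiv.Perm.inv_eq_iff_eq.2 k0.symm) b, ?_⟩
      refine Finset.subset_smul_finset_iff.2 ?_
      rw [inv_inv, Finset.smul_finset_union, ks, kn']
      exact c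
  obtain ⟨a1, a2⟩ := key g i hil hg gn g0 gs m gm
  obtain ⟨b1, b2⟩ := key h j hjl hh hn h0 hs m' hmm
  have hkey : keyB (roots.getD i 0) = keyB (roots.getD j 0) := by
    have e1 : pc (roots.getD i 0 &&& s0) = pc (roots.getD j 0 &&& s0) := by
      rw [← card_toSet, ← card_toSet, toSet_and, toSet_and, Finset.inter_comm, a1, hi, ← b1, Finset.inter_comm]
    have e2 : coplB (roots.getD i 0) = coplB (roots.getD j 0) := by
      rw [Bool.eq_iff_iff, ← copl_std (hrlt i hil), ← copl_std (hrlt j hjl), a2, hc, b2]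
    rw [keyB, keyB, e1, e2]
  have hij : i = j := by
    have := (h3.getElem_inj_iff (hi := by simpa using hil) (hj := by simpa using hjl)).1 (by
      rw [List.getElem_map, List.getElem_map, ← List.getD_eq_getElem roots 0 hil,
        ← List.getD_eq_getElem roots 0 hjl]
      exact hkey)
    exact this
  subst hij
  refine ⟨h * g⁻¹, mul_mem hh (inv_mem hg), ?_, ?_, ?_, ?_⟩
  · rw [Equiv.Perm.mul_apply, Equiv.Perm.inv_eq_iff_eq.2 gn.symm, hn]
  · rw [Equiv.Perm.mul_apply, Equiv.Perm.inv_eq_iff_eq.2 g0.symm, h0]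
  · rw [mul_smul, show g⁻¹ • toSet s0 = toSet s0 by rw [inv_smul_eq_iff, gs], hs]
  · rw [mul_smul, ← gm, inv_smul_smul, hmm]

/-! two octads meeting twice -/

theorem o1_check : (inCode o1 && (pc o1 == 8)) = true ∧
    pc (octO &&& o1) = 2 ∧ toSet octO \ toSet o1 = (Finset.range 6).image bp ∧
    (tr 6).all (fun p => isIdB p || !(pmask p o1 == o1)) = true := by decide +kernel

end CfsgLib.Golay.PairOrb
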