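import Cfsg.Agent.Lib.Golay.Stabs2
import Cfsg.Agent.Lib.Golay.Compl
import Cfsg.Agent.Lib.Golay.SmallGroups

/-! The stabiliser of a pair of outside points in `M11` is the symmetric group of degree 5. -/
set_option autoImplicit false
set_option linter.all false
set_option maxRecDepth 100000

namespace CfsgLib.Golay.PairStab

open Cfsg CfsgLib.Golay CfsgLib.Golay.TwoFusion CfsgLib.Golay.Search CfsgLib.Golay.Classes
open scoped Pointwise

/-- the outside pair -/
def mP : ℕ := 8388640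

/-- the orbit of length five -/
def mO : ℕ := 274456

/-- allowed images -/
def ok2 (k v : ℕ) : Bool :=
  (dodD.testBit (base.getD k 0) == dodD.testBit v) &&
    (!(base.getD k 0 == 0) || v == 0) && (!mP.testBit (base.getD k 0) || mP.testBit v)

/-- the condition -/
def P2B (q : ℕ) : Bool := (pmask q dodD == dodD) && (img q 0 == 0) && (pmask q mP == mP)

/-- the subgroup -/
def G2 : Subgroup (Equiv.Perm GolayPt) :=
  M24 ⊓ MulAction.stabilizer (Equiv.Perm GolayPt) (toSet dodD) ⊓
    MulAction.stabilizer (Equiv.Perm GolayPt) (pt 0) ⊓ MulAction.stabilizer (Equiv.Perm GolayPt) (toSet mP)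

/-- the condition -/
def C2 (g : Equiv.Perm GolayPt) : Prop :=
  g • toSet dodD = toSet dodD ∧ g (pt 0) = pt 0 ∧ g • toSet mP = toSet mP

theorem mem_G2 {g : Equiv.Perm GolayPt} : g ∈ G2 ↔ g ∈ M24 ∧ C2 g := by
  simp only [G2, C2, Subgroup.mem_inf, MulAction.mem_stabilizer_iff, Equiv.Perm.smul_def, and_assoc]

theorem list2 : (∀ g, (∃ r ∈ elems ok2 P2B, toPerm r = g) ↔ g ∈ M24 ∧ C2 g) ∧
    Nat.card {g : Equiv.Perm GolayPt // g ∈ M24 ∧ C2 g} = (elems ok2 P2B).length := by
  refine card_elems (fun g _ hg i hi => ?_) fun r hr _ => ?_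
  · have hb : idx (bp i) = base.getD i 0 := idx_pt (base_lt i hi)
    simp only [ok2, Bool.and_eq_true, Bool.or_eq_true, Bool.not_eq_true', beq_iff_eq, beq_eq_false_iff_ne]
    refine ⟨⟨?_, ?_⟩, ?_⟩
    · rw [← hb, Bool.eq_iff_iff, ← mem_toSet, ← mem_toSet]
      conv_rhs => rw [← hg.1, ← Equiv.Perm.smul_def, Finset.smul_mem_smul_finset_iff]
    · by_cases h : base.getD i 0 = 0
      · right
        have hbp : bp i = pt 0 := by rw [bp, h]
        rw [hbp, hg.2.1, idx_pt (by omega)]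
      · exact Or.inl h
    · by_cases h : mP.testBit (base.getD i 0) = true
      · right
        rw [← mem_toSet, ← hg.2.2, ← Equiv.Perm.smul_def, Finset.smul_mem_smul_finset_iff, mem_toSet, hb]
        exact h
      · exact Or.inl (by simpa using h)
  · simp only [P2B, Bool.and_eq_true, beq_iff_eq]
    constructor
    · rintro ⟨⟨h1, h2⟩, h3⟩
      refine ⟨by rw [smul_toSet hr, h1], ?_, by rw [smul_toSet hr, h3]⟩
      rw [← idx_inj, idx_toPerm hr, idx_pt (by omega), h2]
    · rintro ⟨h1, h2, h3⟩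
      rw [smul_toSet hr] at h1 h3
      refine ⟨⟨toSet_inj (pmask_lt hr _) (by decide +kernel) h1, ?_⟩,
        toSet_inj (pmask_lt hr _) (by decide +kernel) h3⟩
      have h := congrArg idx h2
      rwa [idx_toPerm hr, idx_pt (by omega)] at h

theorem checks2 : (elems ok2 P2B).length = 120 ∧
    ((elems ok2 P2B).all fun r => (pmask r mO == mO) &&
      ((!(List.range 24).all fun i => !mO.testBit i || img r i == i) ||
        (List.range 24).all fun i => img r i == i)) = true ∧
    (toSet mO).card = 5 ∧ toSet mP = {pt 23, pt 5} := by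
  decide +kernel

theorem card_G2 : Nat.card ↥G2 = 120 := by
  rw [← checks2.1, ← list2.2]
  exact Nat.card_congr (Equiv.subtypeEquivRight fun g => mem_G2)

theorem equiv_G2 : Nonempty (↥G2 ≃* Equiv.Perm (Fin 5)) := by
  classical
  have hall := List.all_eq_true.1 checks2.2.1
  have hrep : ∀ g : ↥G2, ∃ r, okPerm r = true ∧ toPerm r = (g : Equiv.Perm GolayPt) ∧ r ∈ elems ok2 P2B := by
    intro g
    obtain ⟨r, hr, e⟩ := (list2.1 g).2 (mem_G2.1 g.2)
    exact ⟨r, (elems_spec hr).1, e, hr⟩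
  have hinv : ∀ (g : ↥G2) (x : GolayPt), (g : Equiv.Perm GolayPt) x ∈ toSet mO ↔ x ∈ toSet mO := by
    intro g x
    obtain ⟨r, ho, e, hr⟩ := hrep g
    have h := hall r hr
    rw [Bool.and_eq_true, beq_iff_eq] at h
    have hfix : (g : Equiv.Perm GolayPt) • toSet mO = toSet mO := by rw [← e, smul_toSet ho, h.1]
    conv_lhs => rw [← hfix, ← Equiv.Perm.smul_def, Finset.smul_mem_smul_finset_iff]
  let φ : ↥G2 →* Equiv.Perm {x : GolayPt // x ∈ toSet mO} :=
    { toFun := fun g => (g : Equiv.Perm GolayPt).subtypePerm (hinv g)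
      map_one' := by ext x; rfl
      map_mul' := fun g g' => by ext x; rfl }
  have hφ : Function.Injective φ := by
    rw [← MonoidHom.ker_eq_bot_iff, Subgroup.eq_bot_iff_forall]
    intro g hg
    obtain ⟨r, ho, e, hr⟩ := hrep g
    have h := hall r hr
    simp only [Bool.and_eq_true, Bool.or_eq_true, Bool.not_eq_true', List.all_eq_true, List.mem_range,
      beq_iff_eq] at h
    rcases h.2 with h2 | h2
    · rw [List.all_eq_false] at h2
      obtain ⟨i, hi, h3⟩ := h2
      rw [List.mem_range] at hi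
      simp only [Bool.or_eq_true, Bool.not_eq_true', beq_iff_eq, not_or, Bool.not_eq_false] at h3
      exfalso; apply h3.2
      have h4 := congrArg (fun p => ((p ⟨pt i, mem_toSet.2 (by rw [idx_pt hi]; exact h3.1)⟩ :
        {x : GolayPt // x ∈ toSet mO}) : GolayPt)) (MonoidHom.mem_ker.1 hg)
      have h5 : idx ((g : Equiv.Perm GolayPt) (pt i)) = idx (pt i) := congrArg idx h4
      rwa [← e, idx_toPerm ho, idx_pt hi] at h5
    · refine Subtype.ext (Equiv.ext fun x => idx_inj.1 ?_)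
      rw [← e, idx_toPerm ho, h2 _ (idx_lt x)]
      rfl
  have hcard : Nat.card (Equiv.Perm {x : GolayPt // x ∈ toSet mO}) = 120 := by
    rw [Nat.card_perm, Nat.card_eq_finsetCard, checks2.2.2.1]; rfl
  have hb : Function.Bijective φ := (Nat.bijective_iff_injective_and_card φ).2 ⟨hφ, by rw [card_G2, hcard]⟩
  obtain ⟨ε⟩ : Nonempty ({x : GolayPt // x ∈ toSet mO} ≃ Fin 5) :=
    ⟨(Finset.equivFin (toSet mO)).trans (finCongr checks2.2.2.1)⟩
  exact ⟨(MulEquiv.ofBijective φ hb).trans ε.permCongrHom⟩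

theorem main {d : Finset GolayPt} (hd : d ∈ dodecads) {p q q' : GolayPt} (hp : p ∈ d) (hq : q ∉ d)
    (hq' : q' ∉ d) (hne : q ≠ q') :
    Nonempty (↥(MulAction.stabilizer M24 d ⊓ MulAction.stabilizer M24 p ⊓
      MulAction.stabilizer M24 ({q, q'} : Finset GolayPt)) ≃* Equiv.Perm (Fin 5)) := by
  classical
  obtain ⟨a, ha, e, e0⟩ := exists_dod_pt hd hp
  obtain ⟨r, hr⟩ : ∃ r, r ∉ d ∧ r ≠ q ∧ r ≠ q' := by
    have hc : 2 < dᶜ.card := by
      rw [Finset.card_compl, card_dodecad hd]; decide +kernel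
    obtain ⟨r, hr, hrn⟩ := Finset.exists_mem_notMem_of_card_lt_card
      (s := ({q, q'} : Finset GolayPt)) (t := dᶜ) (lt_of_le_of_lt Finset.card_le_two hc)
    refine ⟨r, Finset.mem_compl.1 hr, ?_, ?_⟩ <;> rintro rfl <;> simp at hrn
  obtain ⟨g, hg, hgx⟩ := S11_tuple_compl
    ⟨![pt 23, pt 5, pt 7], by decide +kernel⟩
    ⟨![a⁻¹ q, a⁻¹ q', a⁻¹ r], by
      intro i j; fin_cases i <;> fin_cases j <;> simp [hne, hne.symm, hr.2.1, hr.2.2, hr.2.1.symm, hr.2.2.symm]⟩
    (by decide +kernel)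
    (by intro i; fin_cases i; exacts [notMem_of_conj e hq, notMem_of_conj e hq', notMem_of_conj e hr.1])
  have hb : a * g ∈ M24 := mul_mem ha hg.1.1
  have e' : (a * g) • toSet dodD = d := by rw [mul_smul, MulAction.mem_stabilizer_iff.1 hg.1.2, e]
  have e0' : (a * g) (pt 0) = p := by rw [Equiv.Perm.mul_apply, mem_stab_pt.1 hg.2, e0]
  have eP : (a * g) • toSet mP = {q, q'} := by
    have h1 : g (pt 23) = a⁻¹ q := hgx 0
    have h2 : g (pt 5) = a⁻¹ q' := hgx 1
    rw [checks2.2.2.2, Finset.smul_finset_insert, Finset.smul_finset_singleton]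
    simp only [Equiv.Perm.smul_def, Equiv.Perm.mul_apply, h1, h2]
    simp
  generalize a * g = b at hb e' e0' eP
  have E := conjEquiv (H := MulAction.stabilizer M24 d ⊓ MulAction.stabilizer M24 p ⊓
      MulAction.stabilizer M24 ({q, q'} : Finset GolayPt)) hb (K := G2) (fun g h => (mem_G2.1 h).1) (fun g => by
    rw [mem_G2]
    constructor
    · rintro ⟨⟨h1, h2⟩, h3⟩
      refine ⟨mul_mem (mul_mem (inv_mem hb) g.2) hb, ?_, ?_, ?_⟩
      · exact conj_smul.2 (by rw [e']; exact h1)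
      · exact conj_fix.2 (by rw [e0']; exact h2)
      · exact conj_smul.2 (by rw [eP]; exact h3)
    · rintro ⟨-, h1, h2, h3⟩
      have k1 := conj_smul.1 h1
      have k2 := conj_fix.1 h2
      have k3 := conj_smul.1 h3
      rw [e'] at k1; rw [e0'] at k2; rw [eP] at k3
      exact ⟨⟨k1, k2⟩, k3⟩)
  obtain ⟨F⟩ := equiv_G2
  exact ⟨E.trans F⟩

end CfsgLib.Golay.PairStab
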