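import Cfsg.Agent.Lib.Golay.SmallGroups

/-! Quartets of a dodecad. -/
set_option autoImplicit false
set_option linter.all false
set_option maxRecDepth 8000

namespace CfsgLib.Golay.Quartet

open Cfsg CfsgLib.Golay
open scoped Pointwise

/-- the first three points of the standard dodecad -/
def t0m : ℕ := 7

/-- hexads on the standard dodecad -/
def hexL : List ℕ := [343, 591, 797, 858, 4127, 4430, 4441, 4691, 4700, 4875, 4886, 4933, 8285, 8478, 8523, 8731, 8790, 8967, 9036, 9041, 12359, 12378, 12557, 12563, 12628, 12814, 12821, 12873, 13080, 13122, 65627, 65807, 65884, 66078, 66133, 66323, 66374, 66377, 69709, 69718, 69909, 69914, 69955, 70151, 70169, 70218, 70412, 70480, 73751, 73806, 74009, 74053, 74066, 74253, 74307, 74328, 74506, 74516, 77835, 77852, 77905, 78086, 78152, 78354, 78404, 78593, 262238, 262427, 262477, 262679, 262745, 262926, 262979, 262996, 266315, 266325, 266503, 266524, 266578, 266765, 266778, 266822, 267025, 267080, 270351, 270419, 270613, 270662, 270680, 270876,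 270917, 270922, 271113, 271122, 274454, 274457, 274508, 274698, 274753, 274947, 275024, 275204, 327709, 327751, 327958, 328010, 328017, 328203, 328268, 328274, 328453, 328472, 331790, 331795, 331864, 332041, 332100, 332308, 332353, 332546, 335898, 335945, 335956, 336131, 336140, 336390, 336401, 336704, 339973, 340034, 340240, 340488]

/-- triples completing `t0m` to a hexad -/
def triL : List ℕ := [336, 584, 4120, 8960, 12352, 65800, 70144, 73744, 262672, 266496, 270344, 327744]

/-- the four quartets through `t0m`, without that triple -/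
def qL : List (List ℕ) := [[336, 70144, 270344], [584, 73744, 266496], [4120, 8960, 327744], [12352, 65800, 262672]]

/-- maps from the first quartet to each of the four -/
def qPerm : List ℕ := [719727297015853033699427702358017026, 899229008835701377456323923669024802, 928551114002799620725335814514999361, 608132182080247986231149538876424257]

theorem hexL_eq : ((octList.map (· &&& dodD)).filter fun h => pc h == 6).all hexL.contains = true ∧
    hexL.all (fun h => ((octList.map (· &&& dodD)).contains h) && (pc h == 6)) = true := by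
  constructor <;> decide +kernel

theorem tri_check : hexL.all (fun h => !(h &&& t0m == t0m) || triL.contains (h ^^^ t0m)) = true ∧
    triL.all (fun u => pc u == 3 && u &&& t0m == 0 && u &&& dodD == u && (qL.filter (·.contains u)).length == 1)
      = true ∧
    triL.all (fun u => triL.all fun v => !(hexL.contains (u ||| v) && u &&& v == 0) ||
      qL.any fun q => q.contains u && q.contains v) = true ∧
    qL.all (fun q => q.length == 3 && decide q.Nodup && q.all (fun u => triL.contains u) &&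
      q.all (fun u => hexL.contains (t0m ||| u) && q.all fun v => u == v || hexL.contains (u ||| v)))
      = true ∧
    qL.Nodup ∧ qL.length = 4 ∧ (pc t0m == 3 && t0m &&& dodD == t0m) = true ∧
    (qPerm.all fun p => inM24 p && pmask p dodD == dodD && pmask p t0m == t0m) = true ∧
    ((List.range 4).all fun k => ((qL.getD 0 []).map (pmask (qPerm.getD k 0))).all
      (qL.getD k []).contains) = true := by
  refine ⟨?_, ?_, ?_, ?_, ?_, ?_, ?_, ?_, ?_⟩ <;> decide +kernel

theorem hexad_iff {h : Finset GolayPt} : h ∈ hexadsOn (toSet dodD) ↔ toMask h ∈ hexL := by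
  obtain ⟨h1, h2⟩ := hexL_eq
  constructor
  · rintro ⟨hc, o, ho, rfl⟩
    obtain ⟨m, hm, rfl⟩ := exists_mask_octad ho
    rw [← toSet_and, card_toSet] at hc
    rw [← toSet_and, toMask_toSet (Nat.lt_of_le_of_lt Nat.and_le_left (octList_lt hm))]
    simpa using List.all_eq_true.1 h1 _ (List.mem_filter.2 ⟨List.mem_map_of_mem hm, by simp [hc]⟩)
  · intro hh
    have := List.all_eq_true.1 h2 _ hh
    simp only [Bool.and_eq_true, List.contains_iff_mem, beq_iff_eq, List.mem_map] at this
    obtain ⟨⟨m, hm, e⟩, h6⟩ := this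
    refine ⟨?_, toSet m, toSet_mem_octads hm, ?_⟩
    · rw [← toSet_toMask h, card_toSet, h6]
    · rw [← toSet_and, e, toSet_toMask]

theorem hexL_lt {m : ℕ} (h : m ∈ hexL) : m < 16777216 := by
  have : hexL.all (fun m => decide (m < 16777216)) = true := by decide +kernel
  simpa using List.all_eq_true.1 this m h

theorem triL_lt {m : ℕ} (h : m ∈ triL) : m < 16777216 := by
  have : triL.all (fun m => decide (m < 16777216)) = true := by decide +kernel
  simpa using List.all_eq_true.1 this m h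

theorem qL_sub {q : List ℕ} (hq : q ∈ qL) {u : ℕ} (hu : u ∈ q) : u ∈ triL := by
  have := List.all_eq_true.1 tri_check.2.2.2.1 q hq
  simp only [Bool.and_eq_true, List.all_eq_true, List.contains_iff_mem] at this
  exact this.1.2 u hu

theorem qL_uniq {u : ℕ} (hu : u ∈ triL) {q q' : List ℕ} (hq : q ∈ qL) (hq' : q' ∈ qL)
    (h : u ∈ q) (h' : u ∈ q') : q = q' := by
  have := List.all_eq_true.1 tri_check.2.1 u hu
  simp only [Bool.and_eq_true, beq_iff_eq] at this
  obtain ⟨w, hw⟩ := List.length_eq_one_iff.1 this.2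
  have e : ∀ r, r ∈ qL → u ∈ r → r = w := fun r hr hur => by
    have : r ∈ qL.filter (·.contains u) := List.mem_filter.2 ⟨hr, by simpa using hur⟩
    rw [hw] at this; simpa using this
  rw [e q hq h, e q' hq' h']

/-- the standard triple -/
def t0 : Finset GolayPt := toSet t0m

/-- the quartet of a list -/
def quad (q : List ℕ) : Finset (Finset GolayPt) := insert t0 (q.map toSet).toFinset

theorem t0_spec : t0.card = 3 ∧ t0 ⊆ toSet dodD := by
  have := tri_check.2.2.2.2.2.2.1
  simp only [Bool.and_eq_true, beq_iff_eq] at this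
  exact ⟨(card_toSet _).trans this.1, (toSet_subset_iff (by decide)).2 this.2⟩

theorem tri_of_union {u : Finset GolayPt} (hu : u.card = 3)
    (h : t0 ∪ u ∈ hexadsOn (toSet dodD)) : toMask u ∈ triL ∧ Disjoint t0 u := by
  have hd : Disjoint t0 u := by
    rw [Finset.disjoint_iff_inter_eq_empty, ← Finset.card_eq_zero]
    have := Finset.card_union_add_card_inter t0 u
    have := t0_spec.1
    have := h.1
    omega
  refine ⟨?_, hd⟩
  have hm := hexad_iff.1 h
  have := List.all_eq_true.1 tri_check.1 _ hm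
  have e1 : toMask (t0 ∪ u) &&& t0m = t0m := by
    have h := (toSet_subset_iff (a := t0m) (b := toMask (t0 ∪ u)) (by decide)).1
      (by rw [toSet_toMask]; exact Finset.subset_union_left)
    rwa [Nat.and_comm]
  have e2 : toMask (t0 ∪ u) ^^^ t0m = toMask u := by
    apply toSet_inj (Nat.xor_lt_two_pow (n := 24) (toMask_lt _) (by decide)) (toMask_lt _)
    rw [toSet_xor, toSet_toMask, toSet_toMask]
    ext x
    simp only [Finset.mem_symmDiff, Finset.mem_union]
    have hx : x ∈ t0 → x ∉ u := fun h => Finset.disjoint_left.1 hd h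
    change (x ∈ t0 ∨ x ∈ u) ∧ x ∉ t0 ∨ x ∈ t0 ∧ ¬(x ∈ t0 ∨ x ∈ u) ↔ x ∈ u
    tauto
  simpa [e1, e2] using this

theorem toMask_union_tri {u v : Finset GolayPt} : toMask (u ∪ v) = toMask u ||| toMask v := by
  apply toSet_inj (toMask_lt _) (Nat.or_lt_two_pow (n := 24) (toMask_lt _) (toMask_lt _))
  rw [toSet_or, toSet_toMask, toSet_toMask, toSet_toMask]

theorem quad_mem {q : List ℕ} (hq : q ∈ qL) :
    quad q ∈ quartets (toSet dodD) ∧ t0 ∈ quad q ∧ t0 ∉ (q.map toSet).toFinset := by
  have h := List.all_eq_true.1 tri_check.2.2.2.1 q hq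
  simp only [Bool.and_eq_true, List.all_eq_true, List.contains_iff_mem, beq_iff_eq, decide_eq_true_eq,
    Bool.or_eq_true] at h
  obtain ⟨⟨⟨hlen, hnd⟩, htri⟩, hhex⟩ := h
  have hu : ∀ u ∈ q, (toSet u).card = 3 ∧ toSet u ⊆ toSet dodD ∧ toSet u ≠ t0 := by
    intro u hu
    have := List.all_eq_true.1 tri_check.2.1 u (htri u hu)
    simp only [Bool.and_eq_true, beq_iff_eq] at this
    refine ⟨by rw [card_toSet, this.1.1.1],
      (toSet_subset_iff (triL_lt (htri u hu))).2 this.1.2, fun e => ?_⟩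
    have h0 : toSet (u &&& t0m) = ∅ := by rw [this.1.1.2, toSet_zero]
    rw [toSet_and, e, t0, Finset.inter_self] at h0
    have := t0_spec.1
    rw [t0, h0] at this
    simp at this
  have hn : t0 ∉ (q.map toSet).toFinset := by
    simp only [List.mem_toFinset, List.mem_map, not_exists, not_and]
    exact fun u h => (hu u h).2.2
  refine ⟨⟨?_, ?_, ?_⟩, Finset.mem_insert_self _ _, hn⟩
  · rw [quad, Finset.card_insert_of_notMem hn, List.card_toFinset, List.dedup_eq_self.2
      (hnd.map_on fun a ha b hb e => toSet_inj (triL_lt (htri a ha)) (triL_lt (htri b hb)) e),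
      List.length_map, hlen]
  · intro t ht
    simp only [quad, Finset.mem_insert, List.mem_toFinset, List.mem_map] at ht
    rcases ht with rfl | ⟨u, h, rfl⟩
    · exact t0_spec
    · exact ⟨(hu u h).1, (hu u h).2.1⟩
  · intro t ht v hv hne
    rw [hexad_iff, toMask_union_tri]
    simp only [quad, Finset.mem_insert, List.mem_toFinset, List.mem_map] at ht hv
    have hT : toMask t0 = t0m := toMask_toSet (by decide)
    rcases ht with rfl | ⟨u, h, rfl⟩ <;> rcases hv with rfl | ⟨w, h', rfl⟩
    · exact absurd rfl hne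
    · rw [hT, toMask_toSet (triL_lt (htri w h'))]; exact (hhex w h').1
    · rw [hT, toMask_toSet (triL_lt (htri u h)), Nat.or_comm]; exact (hhex u h).1
    · rw [toMask_toSet (triL_lt (htri u h)), toMask_toSet (triL_lt (htri w h'))]
      exact ((hhex u h).2 w h').resolve_left fun e => hne (by rw [e])

theorem quad_inj {q q' : List ℕ} (hq : q ∈ qL) (hq' : q' ∈ qL) (h : quad q = quad q') : q = q' := by
  have := List.all_eq_true.1 tri_check.2.2.2.1 q hq
  simp only [Bool.and_eq_true, beq_iff_eq] at this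
  obtain ⟨u, hu⟩ := List.exists_mem_of_ne_nil q (by rintro rfl; simp at this)
  have hm : toSet u ∈ quad q' := by
    rw [← h]; exact Finset.mem_insert_of_mem (List.mem_toFinset.2 (List.mem_map_of_mem hu))
  simp only [quad, Finset.mem_insert, List.mem_toFinset, List.mem_map] at hm
  rcases hm with e | ⟨w, hw, e⟩
  · exact absurd (e ▸ List.mem_toFinset.2 (List.mem_map_of_mem hu)) (quad_mem hq).2.2
  · rw [toSet_inj (triL_lt (qL_sub hq' hw)) (triL_lt (qL_sub hq hu)) e] at hw
    exact qL_uniq (qL_sub hq hu) hq hq' hu hw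

theorem mem_quad {Q : Finset (Finset GolayPt)} (hQ : Q ∈ quartets (toSet dodD)) (ht : t0 ∈ Q) :
    ∃ q ∈ qL, Q = quad q := by
  obtain ⟨h4, htr, hpair⟩ := hQ
  have htri : ∀ u ∈ Q.erase t0, toMask u ∈ triL := fun u hu =>
    (tri_of_union (htr u (Finset.mem_of_mem_erase hu)).1
      (hpair t0 ht u (Finset.mem_of_mem_erase hu) (Finset.ne_of_mem_erase hu).symm)).1
  have h3 : (Q.erase t0).card = 3 := by rw [Finset.card_erase_of_mem ht, h4]
  obtain ⟨u, hu⟩ := Finset.card_pos.1 (by omega : 0 < (Q.erase t0).card)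
  have hpairq : ∀ v ∈ Q.erase t0, v ≠ u → ∃ q ∈ qL, toMask u ∈ q ∧ toMask v ∈ q := by
    intro v hv hne
    have hh := hpair u (Finset.mem_of_mem_erase hu) v (Finset.mem_of_mem_erase hv) hne.symm
    have hd : toMask u &&& toMask v = 0 := by
      apply toSet_inj (Nat.lt_of_le_of_lt Nat.and_le_left (toMask_lt _)) (by norm_num)
      rw [toSet_and, toSet_toMask, toSet_toMask, toSet_zero, ← Finset.card_eq_zero]
      have := Finset.card_union_add_card_inter u v
      have := hh.1
      have := (htr u (Finset.mem_of_mem_erase hu)).1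
      have := (htr v (Finset.mem_of_mem_erase hv)).1
      omega
    have := List.all_eq_true.1 (List.all_eq_true.1 tri_check.2.2.1 _ (htri u hu)) _ (htri v hv)
    have hmem := hexad_iff.1 hh
    rw [toMask_union_tri] at hmem
    simpa [hd, hmem] using this
  obtain ⟨v0, hv0, hne0⟩ := Finset.exists_mem_ne (by omega : 1 < (Q.erase t0).card) u
  obtain ⟨q, hq, huq, -⟩ := hpairq v0 hv0 hne0
  refine ⟨q, hq, ?_⟩
  have hsub : Q ⊆ quad q := by
    intro x hx
    by_cases hx0 : x = t0
    · rw [hx0]; exact Finset.mem_insert_self _ _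
    refine Finset.mem_insert_of_mem ?_
    rw [List.mem_toFinset, List.mem_map]
    refine ⟨toMask x, ?_, toSet_toMask x⟩
    by_cases hxu : x = u
    · rw [hxu]; exact huq
    · obtain ⟨q', hq', huq', hxq'⟩ := hpairq x (Finset.mem_erase.2 ⟨hx0, hx⟩) hxu
      rwa [qL_uniq (htri u hu) hq hq' huq huq']
  exact Finset.eq_of_subset_of_card_le hsub (by rw [h4, (quad_mem hq).1.1])

theorem smul_hexadsOn {g : Equiv.Perm GolayPt} (hg : g ∈ M24) {d h : Finset GolayPt}
    (hh : h ∈ hexadsOn d) : g • h ∈ hexadsOn (g • d) := by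
  obtain ⟨hc, o, ho, rfl⟩ := hh
  exact ⟨by rw [Finset.card_smul_finset]; exact hc, g • o, smul_octad hg ho,
    (Finset.smul_finset_inter).symm⟩

theorem smul_quartets {g : Equiv.Perm GolayPt} (hg : g ∈ M24) {d : Finset GolayPt}
    {Q : Finset (Finset GolayPt)} (hQ : Q ∈ quartets d) : g • Q ∈ quartets (g • d) := by
  obtain ⟨h4, htr, hp⟩ := hQ
  refine ⟨by rw [Finset.card_smul_finset]; exact h4, fun t ht => ?_, fun t ht u hu hne => ?_⟩
  · obtain ⟨t', ht', rfl⟩ := Finset.mem_smul_finset.1 ht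
    exact ⟨by rw [Finset.card_smul_finset]; exact (htr t' ht').1,
      Finset.smul_finset_subset_smul_finset (htr t' ht').2⟩
  · obtain ⟨t', ht', rfl⟩ := Finset.mem_smul_finset.1 ht
    obtain ⟨u', hu', rfl⟩ := Finset.mem_smul_finset.1 hu
    rw [← Finset.smul_finset_union]
    exact smul_hexadsOn hg (hp t' ht' u' hu' fun e => hne (by rw [e]))

theorem to_t0 {t : Finset GolayPt} (ht : t.card = 3) (hd : t ⊆ toSet dodD) :
    ∃ g ∈ S12, g • t = t0 := by
  have key : ∀ s : Finset GolayPt, s.card = 3 → s ⊆ toSet dodD →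
      ∃ f : Fin 5 ↪ GolayPt, (∀ i, f i ∈ toSet dodD) ∧ ∀ x, x ∈ s ↔ ∃ i : Fin 5, i.val < 3 ∧ f i = x := by
    intro s hs hsd
    obtain ⟨e, he, he2⟩ := Finset.exists_subset_card_eq (s := toSet dodD \ s) (n := 2) (by
      rw [Finset.card_sdiff_of_subset hsd, card_dodecad toSet_dodD, hs]; norm_num) |>
        fun ⟨e, h1, h2⟩ => (⟨e, h1, h2⟩ : ∃ e, e ⊆ toSet dodD \ s ∧ e.card = 2)
    obtain ⟨a, b, c, hab, hac, hbc, rfl⟩ := Finset.card_eq_three.1 hs
    obtain ⟨p, q, hpq, rfl⟩ := Finset.card_eq_two.1 he2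
    have hp := Finset.mem_sdiff.1 (he (Finset.mem_insert_self p _))
    have hq := Finset.mem_sdiff.1 (he (Finset.mem_insert_of_mem (Finset.mem_singleton_self q)))
    simp only [Finset.mem_insert, Finset.mem_singleton, not_or] at hp hq
    refine ⟨⟨![a, b, c, p, q], ?_⟩, ?_, ?_⟩
    · intro i j h
      fin_cases i <;> fin_cases j <;> simp_all <;> exfalso <;> simp_all [eq_comm]
    · intro i
      fin_cases i
      · exact hsd (Finset.mem_insert_self a _)
      · exact hsd (Finset.mem_insert_of_mem (Finset.mem_insert_self b _))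
      · exact hsd (Finset.mem_insert_of_mem (Finset.mem_insert_of_mem (Finset.mem_singleton_self c)))
      · exact hp.1
      · exact hq.1
    · intro x
      simp only [Finset.mem_insert, Finset.mem_singleton]
      constructor
      · rintro (rfl | rfl | rfl)
        · exact ⟨0, by decide, rfl⟩
        · exact ⟨1, by decide, rfl⟩
        · exact ⟨2, by decide, rfl⟩
      · rintro ⟨i, hi, rfl⟩
        fin_cases i
        · exact Or.inl rfl
        · exact Or.inr (Or.inl rfl)
        · exact Or.inr (Or.inr rfl)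
        · exact absurd hi (by decide)
        · exact absurd hi (by decide)
  obtain ⟨x, hx, hxs⟩ := key t ht hd
  obtain ⟨y, hy, hys⟩ := key t0 t0_spec.1 t0_spec.2
  obtain ⟨g, hg, hgxy⟩ := S12_tuple x y hx hy
  refine ⟨g, hg, ?_⟩
  ext z
  rw [Finset.mem_smul_finset]
  simp only [hxs, hys, Equiv.Perm.smul_def]
  constructor
  · rintro ⟨_, ⟨i, hi, rfl⟩, rfl⟩; exact ⟨i, hi, (hgxy i).symm⟩
  · rintro ⟨i, hi, rfl⟩; exact ⟨x i, ⟨i, hi, rfl⟩, hgxy i⟩

theorem S12_fix {g : Equiv.Perm GolayPt} (hg : g ∈ S12) : g • toSet dodD = toSet dodD :=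
  MulAction.mem_stabilizer_iff.1 hg.2

theorem count_std {t : Finset GolayPt} (ht : t.card = 3) (hd : t ⊆ toSet dodD) :
    {Q | Q ∈ quartets (toSet dodD) ∧ t ∈ Q}.ncard = 4 := by
  obtain ⟨g, hg, e⟩ := to_t0 ht hd
  have hset : (fun Q => g • Q) '' {Q | Q ∈ quartets (toSet dodD) ∧ t ∈ Q} =
      ↑((qL.map quad).toFinset) := by
    ext Q
    simp only [Set.mem_image, Set.mem_setOf_eq, List.coe_toFinset, List.mem_map]
    constructor
    · rintro ⟨R, ⟨hR, htR⟩, rfl⟩
      have h1 := smul_quartets hg.1 hR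
      rw [S12_fix hg] at h1
      obtain ⟨q, hq, h2⟩ := mem_quad h1 (e ▸ Finset.smul_mem_smul_finset htR)
      exact ⟨q, hq, h2.symm⟩
    · rintro ⟨q, hq, rfl⟩
      refine ⟨g⁻¹ • quad q, ⟨?_, ?_⟩, smul_inv_smul g _⟩
      · have := smul_quartets (inv_mem hg.1) (quad_mem hq).1
        rwa [S12_fix (inv_mem hg)] at this
      · rw [Finset.mem_inv_smul_finset_iff, e]; exact (quad_mem hq).2.1
  rw [← Set.ncard_image_of_injective _ (MulAction.injective g), hset, Set.ncard_coe_finset,
    List.card_toFinset, List.dedup_eq_self.2 (List.Nodup.map_on (fun a ha b hb h => quad_inj ha hb h)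
      tri_check.2.2.2.2.1), List.length_map, tri_check.2.2.2.2.2.1]

theorem ncard_std : (quartets (toSet dodD)).ncard = 220 := by
  classical
  obtain ⟨A, hA⟩ : ∃ A, A = (quartets (toSet dodD)).toFinset := ⟨_, rfl⟩
  have h := Finset.sum_card_bipartiteAbove_eq_sum_card_bipartiteBelow
    (s := A) (t := (toSet dodD).powersetCard 3) (fun Q t => t ∈ Q)
  rw [Finset.sum_const_nat (m := 4) (fun Q hQ => ?_),
    Finset.sum_const_nat (m := 4) (fun t ht => ?_),
    Finset.card_powersetCard, card_dodecad toSet_dodD] at h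
  · rw [Set.ncard_eq_toFinset_card', ← hA]
    simp only [show Nat.choose 12 3 = 220 by decide] at h
    omega
  · rw [Finset.mem_powersetCard] at ht
    rw [← count_std ht.2 ht.1, ← Set.ncard_coe_finset]
    congr 1
    ext Q
    simp [Finset.bipartiteBelow, hA]
  · rw [hA, Set.mem_toFinset] at hQ
    rw [← hQ.1]
    congr 1
    ext t
    simp only [Finset.bipartiteAbove, Finset.mem_filter, Finset.mem_powersetCard]
    exact ⟨fun h => h.2, fun h => ⟨⟨(hQ.2.1 t h).2, (hQ.2.1 t h).1⟩, h⟩⟩

theorem to_first {Q : Finset (Finset GolayPt)} (hQ : Q ∈ quartets (toSet dodD)) :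
    ∃ g ∈ S12, g • quad (qL.getD 0 []) = Q := by
  obtain ⟨t, ht⟩ := Finset.card_pos.1 (by rw [hQ.1]; norm_num : 0 < Q.card)
  obtain ⟨g, hg, e⟩ := to_t0 (hQ.2.1 t ht).1 (hQ.2.1 t ht).2
  have h1 := smul_quartets hg.1 hQ
  rw [S12_fix hg] at h1
  obtain ⟨q, hq, h2⟩ := mem_quad h1 (e ▸ Finset.smul_mem_smul_finset ht)
  obtain ⟨k, hk, hkq⟩ := List.getElem_of_mem hq
  have hk4 : k < 4 := tri_check.2.2.2.2.2.1 ▸ hk
  obtain ⟨p, hp⟩ : ∃ p, p = qPerm.getD k 0 := ⟨_, rfl⟩
  have hpc := List.all_eq_true.1 tri_check.2.2.2.2.2.2.2.1 p (by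
    have : k < qPerm.length := by rw [show qPerm.length = 4 from rfl]; exact hk4
    rw [hp, List.getD_eq_getElem _ _ this]; exact List.getElem_mem this)
  simp only [Bool.and_eq_true, beq_iff_eq] at hpc
  have hok : okPerm p = true := okPerm_of_inM24 hpc.1.1
  have hS : toPerm p ∈ S12 := ⟨toPerm_mem_M24 hpc.1.1, MulAction.mem_stabilizer_iff.2
    (by rw [smul_toSet hok, hpc.1.2])⟩
  have hmap := List.all_eq_true.1 tri_check.2.2.2.2.2.2.2.2 k (List.mem_range.2 hk4)
  rw [← hp, List.getD_eq_getElem _ _ hk, hkq] at hmap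
  have hq0 : qL.getD 0 [] ∈ qL := by
    rw [List.getD_eq_getElem _ _ (by decide : 0 < qL.length)]; exact List.getElem_mem _
  have himg : toPerm p • quad (qL.getD 0 []) = quad q := by
    refine Finset.eq_of_subset_of_card_le ?_ (by
      rw [Finset.card_smul_finset, (quad_mem hq0).1.1, (quad_mem hq).1.1])
    intro x hx
    obtain ⟨y, hy, rfl⟩ := Finset.mem_smul_finset.1 hx
    simp only [quad, Finset.mem_insert, List.mem_toFinset, List.mem_map] at hy ⊢
    rcases hy with rfl | ⟨u, hu, rfl⟩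
    · left; rw [t0, smul_toSet hok, hpc.2]
    · right
      refine ⟨pmask p u, ?_, (smul_toSet hok u).symm⟩
      simpa using List.all_eq_true.1 hmap _ (List.mem_map_of_mem hu)
  exact ⟨g⁻¹ * toPerm p, mul_mem (inv_mem hg) hS, by rw [mul_smul, himg, ← h2, inv_smul_smul]⟩

theorem quartets_smul_eq {a : Equiv.Perm GolayPt} (ha : a ∈ M24) (d : Finset GolayPt) :
    quartets (a • d) = (fun Q => a • Q) '' quartets d := by
  ext Q
  constructor
  · intro hQ
    refine ⟨a⁻¹ • Q, ?_, smul_inv_smul a Q⟩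
    have := smul_quartets (inv_mem ha) hQ
    rwa [inv_smul_smul] at this
  · rintro ⟨R, hR, rfl⟩; exact smul_quartets ha hR

theorem count_all {d : Finset GolayPt} (hd : d ∈ dodecads) :
    (quartets d).ncard = 220 ∧ ∀ Q ∈ quartets d, ∀ Q' ∈ quartets d,
      ∃ g : Equiv.Perm GolayPt, g ∈ M24 ∧ g • d = d ∧ g • Q = Q' := by
  obtain ⟨a, ha, rfl⟩ := exists_dodD hd
  rw [quartets_smul_eq ha]
  refine ⟨by rw [Set.ncard_image_of_injective _ (MulAction.injective a), ncard_std], ?_⟩
  rintro _ ⟨R, hR, rfl⟩ _ ⟨R', hR', rfl⟩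
  obtain ⟨g, hg, e⟩ := to_first hR
  obtain ⟨g', hg', e'⟩ := to_first hR'
  refine ⟨a * (g' * g⁻¹) * a⁻¹, mul_mem (mul_mem ha (mul_mem hg'.1 (inv_mem hg.1))) (inv_mem ha),
    ?_, ?_⟩
  · rw [mul_smul, inv_smul_smul, mul_smul, S12_fix (mul_mem hg' (inv_mem hg))]
  · rw [mul_smul, inv_smul_smul, mul_smul, mul_smul, ← e, inv_smul_smul, e']

theorem unique_all {d : Finset GolayPt} (hd : d ∈ dodecads) {t u : Finset GolayPt}
    (ht : t.card = 3) (hu : u.card = 3) (hh : t ∪ u ∈ hexadsOn d) :
    ∃! Q : Finset (Finset GolayPt), Q ∈ quartets d ∧ t ∈ Q ∧ u ∈ Q := by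
  obtain ⟨a, ha, rfl⟩ := exists_dodD hd
  have hh' : a⁻¹ • (t ∪ u) ∈ hexadsOn (toSet dodD) := by
    have := smul_hexadsOn (inv_mem ha) hh
    rwa [inv_smul_smul] at this
  obtain ⟨o, -, ho⟩ := hh'.2
  have htd : a⁻¹ • t ⊆ toSet dodD := fun x hx => by
    have : x ∈ a⁻¹ • (t ∪ u) := Finset.smul_finset_subset_smul_finset Finset.subset_union_left hx
    rw [← ho] at this
    exact (Finset.mem_inter.1 this).2
  obtain ⟨g, hg, e⟩ := to_t0 ((Finset.card_smul_finset _ _).trans ht) htd
  obtain ⟨b, hb⟩ : ∃ b, b = g * a⁻¹ := ⟨_, rfl⟩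
  have hbM : b ∈ M24 := hb ▸ mul_mem hg.1 (inv_mem ha)
  have hbd : b • (a • toSet dodD) = toSet dodD := by rw [hb, mul_smul, inv_smul_smul, S12_fix hg]
  have hbt : b • t = t0 := by rw [hb, mul_smul, e]
  have h0 : t0 ∪ b • u ∈ hexadsOn (toSet dodD) := by
    have := smul_hexadsOn hbM hh
    rwa [Finset.smul_finset_union, hbt, hbd] at this
  obtain ⟨hm, hdj⟩ := tri_of_union ((Finset.card_smul_finset _ _).trans hu) h0
  have := List.all_eq_true.1 tri_check.2.1 _ hm
  simp only [Bool.and_eq_true, beq_iff_eq] at this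
  obtain ⟨q, hq1⟩ := List.length_eq_one_iff.1 this.2
  have hq' : q ∈ qL.filter (·.contains (toMask (b • u))) := hq1 ▸ List.mem_singleton_self q
  rw [List.mem_filter, List.contains_iff_mem] at hq'
  refine ⟨b⁻¹ • quad q, ⟨?_, ?_, ?_⟩, ?_⟩
  · have := smul_quartets (inv_mem hbM) (quad_mem hq'.1).1
    rwa [show b⁻¹ • toSet dodD = a • toSet dodD by rw [inv_smul_eq_iff, hbd]] at this
  · rw [Finset.mem_inv_smul_finset_iff, hbt]; exact (quad_mem hq'.1).2.1
  · rw [Finset.mem_inv_smul_finset_iff]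
    refine Finset.mem_insert_of_mem (List.mem_toFinset.2 (List.mem_map.2 ⟨_, hq'.2, toSet_toMask _⟩))
  · rintro Q ⟨hQ, htQ, huQ⟩
    have h1 := smul_quartets hbM hQ
    rw [hbd] at h1
    obtain ⟨q2, hq2, h2⟩ := mem_quad h1 (hbt ▸ Finset.smul_mem_smul_finset htQ)
    have h3 : b • u ∈ quad q2 := h2 ▸ Finset.smul_mem_smul_finset huQ
    simp only [quad, Finset.mem_insert, List.mem_toFinset, List.mem_map] at h3
    rcases h3 with h3 | ⟨w, hw, h3⟩
    · exfalso
      rw [h3, disjoint_self] at hdj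
      have := t0_spec.1
      rw [hdj] at this
      simp at this
    · have hw' : toMask (b • u) = w := by rw [← h3, toMask_toSet (triL_lt (qL_sub hq2 hw))]
      have : q2 ∈ qL.filter (·.contains (toMask (b • u))) :=
        List.mem_filter.2 ⟨hq2, by rw [List.contains_iff_mem, hw']; exact hw⟩
      rw [hq1, List.mem_singleton] at this
      rw [← this, ← h2, inv_smul_smul]

end CfsgLib.Golay.Quartet
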