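import Cfsg.Agent.Lib.Golay.Bound
import Cfsg.Agent.Lib.Golay.Cents
import Cfsg.Agent.Lib.Golay.FixCount
import Cfsg.Agent.Lib.Golay.Quartets
import Cfsg.Agent.Lib.Golay.StabData

/-! The stabiliser of a dodecad and three of its points; the two conjugacy classes of `M11`. -/
set_option autoImplicit false
set_option linter.all false
set_option maxRecDepth 100000

namespace CfsgLib.Golay.Stabs

open Cfsg CfsgLib.Golay CfsgLib.Golay.TwoFusion CfsgLib.Golay.Search CfsgLib.Golay.Classes
open scoped Pointwise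

/-- allowed images -/
def ok3 (k v : ℕ) : Bool :=
  (dodD.testBit (base.getD k 0) == dodD.testBit v) &&
    (!decide (base.getD k 0 < 3) || v == base.getD k 0)

/-- the condition -/
def P3B (q : ℕ) : Bool := (pmask q dodD == dodD) && (List.range 3).all fun i => img q i == i

/-- the condition -/
def C3 (g : Equiv.Perm GolayPt) : Prop :=
  g • toSet dodD = toSet dodD ∧ ∀ x ∈ Quartet.t0, g x = x

theorem t0_mem (x : GolayPt) : x ∈ Quartet.t0 ↔ idx x < 3 := by revert x; decide +kernel

theorem list3 : (∀ g, (∃ r ∈ elems ok3 P3B, toPerm r = g) ↔ g ∈ M24 ∧ C3 g) ∧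
    Nat.card {g : Equiv.Perm GolayPt // g ∈ M24 ∧ C3 g} = (elems ok3 P3B).length := by
  refine card_elems (fun g _ hg i hi => ?_) fun r hr _ => ?_
  · have hb : idx (bp i) = base.getD i 0 := idx_pt (base_lt i hi)
    simp only [ok3, Bool.and_eq_true, Bool.or_eq_true, Bool.not_eq_true', decide_eq_false_iff_not,
      beq_iff_eq]
    refine ⟨?_, ?_⟩
    · rw [← hb, Bool.eq_iff_iff, ← mem_toSet, ← mem_toSet]
      conv_rhs => rw [← hg.1, ← Equiv.Perm.smul_def, Finset.smul_mem_smul_finset_iff]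
    · by_cases h : base.getD i 0 < 3
      · exact Or.inr (by rw [← hb, hg.2 _ ((t0_mem _).2 (hb ▸ h))])
      · exact Or.inl h
  · simp only [P3B, Bool.and_eq_true, List.all_eq_true, List.mem_range, beq_iff_eq]
    constructor
    · rintro ⟨h1, h2⟩
      refine ⟨by rw [smul_toSet hr, h1], fun x hx => ?_⟩
      rw [← idx_inj, idx_toPerm hr, h2 _ ((t0_mem x).1 hx)]
    · rintro ⟨h1, h2⟩
      rw [smul_toSet hr] at h1
      refine ⟨toSet_inj (pmask_lt hr _) (by decide +kernel) h1, fun i hi => ?_⟩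
      have := congrArg idx (h2 (pt i) ((t0_mem _).2 (by rw [idx_pt (by omega)]; exact hi)))
      rwa [idx_toPerm hr, idx_pt (by omega)] at this

/-- cubes to the identity -/
def cubeB (q : ℕ) : Bool := isIdB (comp q (comp q q))

/-- pointwise equal -/
def eqB (a b : ℕ) : Bool := (List.range 24).all fun i => img a i == img b i

theorem eqB_spec {a b : ℕ} (ha : okPerm a = true) (hb : okPerm b = true) (h : eqB a b = true) :
    toPerm a = toPerm b := by
  refine Equiv.ext fun x => idx_inj.1 ?_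
  rw [idx_toPerm ha, idx_toPerm hb]
  simpa using List.all_eq_true.1 h (idx x) (List.mem_range.2 (idx_lt x))

/-- the quaternion group as packed permutations -/
def qcode : QuaternionGroup 2 → ℕ
  | .a i => pwr qA i.val
  | .xa i => TwoFusion.word [qX, pwr qA i.val] [0, 1]

theorem checks3 : (elems ok3 P3B).length = 72 ∧ ((elems ok3 P3B).filter cubeB).length = 9 ∧
    (((elems ok3 P3B).filter cubeB).all fun a => ((elems ok3 P3B).filter cubeB).all fun b =>
      cubeB (comp a b)) = true ∧
    inM24 qA = true ∧ inM24 qX = true ∧ P3B qA = true ∧ P3B qX = true ∧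
    (∀ x y : QuaternionGroup 2, eqB (comp (qcode x) (qcode y)) (qcode (x * y)) = true) ∧
    (∀ x : QuaternionGroup 2, isIdB (qcode x) = true → x = 1) := by
  decide +kernel

theorem qcode_spec (x : QuaternionGroup 2) : okPerm (qcode x) = true ∧ toPerm (qcode x) ∈ M24 ∧
    C3 (toPerm (qcode x)) := by
  obtain ⟨-, -, -, hA, hX, pA, pX, -⟩ := checks3
  have mk : ∀ r, inM24 r = true → P3B r = true → okPerm r = true ∧ toPerm r ∈ M24 ∧ C3 (toPerm r) := by
    intro r hr hp
    have hok := okPerm_of_inM24 hr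
    simp only [P3B, Bool.and_eq_true, List.all_eq_true, List.mem_range, beq_iff_eq] at hp
    exact ⟨hok, toPerm_mem_M24 hr, by rw [smul_toSet hok, hp.1], fun x hx => by
      rw [← idx_inj, idx_toPerm hok, hp.2 _ ((t0_mem x).1 hx)]⟩
  let H : Subgroup (Equiv.Perm GolayPt) :=
    { carrier := {g | g ∈ M24 ∧ C3 g}
      one_mem' := ⟨one_mem _, one_smul _ _, fun _ _ => rfl⟩
      mul_mem' := fun {a b} ha hb => ⟨mul_mem ha.1 hb.1, by rw [mul_smul, hb.2.1, ha.2.1],
        fun x hx => by rw [Equiv.Perm.mul_apply, hb.2.2 x hx, ha.2.2 x hx]⟩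
      inv_mem' := fun {a} ha => ⟨inv_mem ha.1, by rw [inv_smul_eq_iff, ha.2.1],
        fun x hx => by rw [Equiv.Perm.inv_eq_iff_eq, ha.2.2 x hx]⟩ }
  have hp : ∀ j, okPerm (pwr qA j) = true ∧ toPerm (pwr qA j) ∈ H := fun j => by
    obtain ⟨h1, h2⟩ := pwr_spec (mk qA hA pA).1 j
    exact ⟨h1, h2 ▸ pow_mem (show toPerm qA ∈ H from (mk qA hA pA).2) j⟩
  cases x with
  | a i => exact ⟨(hp _).1, (hp _).2⟩
  | xa i =>
    obtain ⟨h1, h2⟩ := word_spec (L := [qX, pwr qA i.val]) (H := H) (fun p hp' => by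
      simp only [List.mem_cons, List.not_mem_nil, or_false] at hp'
      rcases hp' with rfl | rfl
      · exact ⟨(mk qX hX pX).1, (mk qX hX pX).2⟩
      · exact hp _) [0, 1]
    exact ⟨h1, h2⟩

theorem qcode_mul (x y : QuaternionGroup 2) :
    toPerm (qcode (x * y)) = toPerm (qcode x) * toPerm (qcode y) := by
  have hx := (qcode_spec x).1
  have hy := (qcode_spec y).1
  rw [← comp_spec hx hy (okPerm_comp hx hy)]
  exact (eqB_spec (okPerm_comp hx hy) (qcode_spec (x * y)).1 (checks3.2.2.2.2.2.2.2.1 x y)).symm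

/-- the structure of a group identified with the listed stabiliser -/
theorem structure3 {H : Type*} [Group H] (f : H →* Equiv.Perm GolayPt) (hinj : Function.Injective f)
    (hf : ∀ g, (∃ x, f x = g) ↔ g ∈ M24 ∧ C3 g) :
    (∀ Q : Sylow 3 H, (Q : Subgroup H).Normal ∧ Nat.card ↥Q = 9 ∧
      ∀ x ∈ (Q : Subgroup H), x ^ 3 = 1) ∧
    ∀ P : Sylow 2 H, Nonempty (↥P ≃* QuaternionGroup 2) := by
  classical
  haveI : Fact (Nat.Prime 3) := ⟨Nat.prime_three⟩
  haveI : Fact (Nat.Prime 2) := ⟨Nat.prime_two⟩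
  haveI : Finite H := Finite.of_injective f hinj
  obtain ⟨h72, h9, hcl, -⟩ := checks3
  have e : H ≃ {g : Equiv.Perm GolayPt // g ∈ M24 ∧ C3 g} :=
    Equiv.ofBijective (fun x => ⟨f x, (hf _).1 ⟨x, rfl⟩⟩)
      ⟨fun x y h => hinj (congrArg Subtype.val h), fun g => by
        obtain ⟨x, hx⟩ := (hf _).2 g.2; exact ⟨x, Subtype.ext hx⟩⟩
  have hcard : Nat.card H = 72 := by rw [Nat.card_congr e, list3.2, h72]
  have cube : ∀ x : H, x ^ 3 = 1 ↔ ∃ r ∈ (elems ok3 P3B).filter cubeB, toPerm r = f x := by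
    intro x
    constructor
    · intro h
      obtain ⟨r, hr, er⟩ := (list3.1 (f x)).2 ((hf _).1 ⟨x, rfl⟩)
      have ho := (elems_spec hr).1
      have h2 := okPerm_comp ho ho
      refine ⟨r, List.mem_filter.2 ⟨hr, ?_⟩, er⟩
      rw [cubeB, isIdB_iff (okPerm_comp ho h2), comp_spec ho h2 (okPerm_comp ho h2),
        comp_spec ho ho h2, er, ← map_mul, ← map_mul, ← sq, ← pow_succ', h, map_one]
    · rintro ⟨r, hr, er⟩
      obtain ⟨hr, hc⟩ := List.mem_filter.1 hr
      have ho := (elems_spec hr).1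
      have h2 := okPerm_comp ho ho
      rw [cubeB, isIdB_iff (okPerm_comp ho h2), comp_spec ho h2 (okPerm_comp ho h2),
        comp_spec ho ho h2, er, ← map_mul, ← map_mul, ← sq, ← pow_succ'] at hc
      exact hinj (hc.trans (map_one f).symm)
  let N : Subgroup H :=
    { carrier := {x | x ^ 3 = 1}
      one_mem' := one_pow 3
      mul_mem' := by
        intro x y hx hy
        obtain ⟨a, ha, ea⟩ := (cube x).1 hx
        obtain ⟨b, hb, eb⟩ := (cube y).1 hy
        have hao := (elems_spec (List.mem_filter.1 ha).1).1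
        have hbo := (elems_spec (List.mem_filter.1 hb).1).1
        obtain ⟨r, hr, er⟩ := (list3.1 (f (x * y))).2 ((hf _).1 ⟨x * y, rfl⟩)
        refine (cube (x * y)).2 ⟨r, List.mem_filter.2 ⟨hr, ?_⟩, er⟩
        have hro := (elems_spec hr).1
        have hab := okPerm_comp hao hbo
        have hc := List.all_eq_true.1 (List.all_eq_true.1 hcl a ha) b hb
        have e2 : toPerm r = toPerm (comp a b) := by rw [er, comp_spec hao hbo hab, map_mul, ea, eb]
        have h2 := okPerm_comp hro hro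
        have h2' := okPerm_comp hab hab
        rw [cubeB, isIdB_iff (okPerm_comp hab h2'), comp_spec hab h2' (okPerm_comp hab h2'),
          comp_spec hab hab h2'] at hc
        rw [cubeB, isIdB_iff (okPerm_comp hro h2), comp_spec hro h2 (okPerm_comp hro h2),
          comp_spec hro hro h2, e2, hc]
      inv_mem' := fun {x} hx => by
        show x⁻¹ ^ 3 = 1
        rw [inv_pow, show x ^ 3 = 1 from hx, inv_one] }
  have hN : N.Normal := ⟨fun x hx g => by
    show (g * x * g⁻¹) ^ 3 = 1
    rw [conj_pow, show x ^ 3 = 1 from hx, mul_one, mul_inv_cancel]⟩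
  have hNcard : Nat.card ↥N = 9 := by
    have hnd : (((elems ok3 P3B).filter cubeB).map toPerm).Nodup :=
      (srchP_nodup ok3 7 0 idp rfl okPerm_idp).sublist
        ((List.filter_sublist.trans List.filter_sublist).map _)
    rw [← h9, ← List.length_map (as := (elems ok3 P3B).filter cubeB) toPerm,
      ← List.toFinset_card_of_nodup hnd, ← Nat.card_eq_finsetCard]
    refine Nat.card_congr (Equiv.ofBijective (fun x => ⟨f x.1, by
      rw [List.mem_toFinset, List.mem_map]; exact (cube x.1).1 x.2⟩)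
      ⟨fun x y h => Subtype.ext (hinj (congrArg Subtype.val h)), fun g => ?_⟩)
    obtain ⟨r, hr, er⟩ := List.mem_map.1 (List.mem_toFinset.1 g.2)
    have hg := (list3.1 g.1).1 ⟨r, (List.mem_filter.1 hr).1, er⟩
    obtain ⟨x, hx⟩ := (hf _).2 hg
    exact ⟨⟨x, (cube x).2 ⟨r, hr, er.trans hx.symm⟩⟩, Subtype.ext hx⟩
  have hfac : (Nat.card H).factorization 3 = 2 ∧ (Nat.card H).factorization 2 = 3 := by
    rw [hcard, show (72 : ℕ) = 2 ^ 3 * 3 ^ 2 by norm_num, Nat.factorization_mul (by norm_num) (by norm_num),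
      Finsupp.add_apply, Finsupp.add_apply, Nat.Prime.factorization_pow Nat.prime_two,
      Nat.Prime.factorization_pow Nat.prime_three]
    simp
  let P0 : Sylow 3 H := Sylow.ofCard N (by rw [hNcard, hfac.1]; norm_num)
  refine ⟨fun Q => ?_, fun P => ?_⟩
  · obtain ⟨k, hk⟩ := MulAction.exists_smul_eq H P0 Q
    have hQN : (Q : Subgroup H) = N := by
      rw [← hk, Sylow.coe_subgroup_smul]
      exact Subgroup.Normal.conjAct hN _
    refine ⟨hQN ▸ hN, ?_, fun x hx => by rw [hQN] at hx; exact hx⟩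
    show Nat.card ↥(Q : Subgroup H) = 9
    rw [hQN, hNcard]
  · have hq : ∀ x, ∃ y : H, f y = toPerm (qcode x) := fun x => (hf _).2 (qcode_spec x).2
    choose q hq' using hq
    let ψ : QuaternionGroup 2 →* H := MonoidHom.mk' q fun x y => hinj (by
      rw [map_mul, hq', hq', hq', qcode_mul])
    have hψ : Function.Injective ψ := by
      rw [← MonoidHom.ker_eq_bot_iff, Subgroup.eq_bot_iff_forall]
      intro x hx
      refine checks3.2.2.2.2.2.2.2.2 x ?_
      rw [isIdB_iff (qcode_spec x).1, ← hq']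
      rw [MonoidHom.mem_ker] at hx
      rw [show q x = 1 from hx, map_one]
    have hR : Nat.card ↥ψ.range = 8 := by
      rw [← Nat.card_congr (MonoidHom.ofInjective hψ).toEquiv, Nat.card_eq_fintype_card,
        QuaternionGroup.card]
    let R : Sylow 2 H := Sylow.ofCard ψ.range (by rw [hR, hfac.2]; norm_num)
    exact ⟨((P.equiv R).trans (MonoidHom.ofInjective hψ).symm)⟩

theorem swap_check : inM24 swapD = true ∧ pmask swapD dodD = 16777215 ^^^ dodD ∧ img swapD 0 = 23 ∧
    toSet dodD = Spor.squareDodecad ∧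
    (m11mv.all fun w => inM24 w && (pmask w dodD == dodD) && img w 23 == 23) = true ∧
    ((List.range 24).all fun y => !dodD.testBit y || m11mv.any fun w => !(img w y == y)) = true := by
  decide +kernel

end CfsgLib.Golay.Stabs
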