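import Cfsg.Agent.Lib.Golay.OctPts
import Cfsg.Agent.Lib.Golay.SubsetData

/-! 2- and 3-subsets as listed families, and a maximality test. -/
set_option autoImplicit false
set_option linter.all false
set_option maxRecDepth 8000

namespace CfsgLib.Golay

open Cfsg
open scoped Pointwise

theorem subsets_eq {k : ℕ} {L : List ℕ} (hlt : ∀ m ∈ L, m < 16777216) (hk : ∀ m ∈ L, pc m = k)
    (hinc : incB L = true) (hlen : L.length = Nat.choose 24 k) :
    {s : Finset GolayPt | s.card = k} = toSet '' {m | m ∈ L} := by
  classical
  have hnd : (L.map toSet).Nodup := List.Nodup.map_on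
    (fun a ha b hb e => toSet_inj (hlt a ha) (hlt b hb) e)
    ((pairwise_of_incB hinc).imp fun h => ne_of_lt h)
  have e : (L.map toSet).toFinset = (Finset.univ : Finset GolayPt).powersetCard k := by
    apply Finset.eq_of_subset_of_card_le
    · intro s hs
      simp only [List.mem_toFinset, List.mem_map] at hs
      obtain ⟨m, hm, rfl⟩ := hs
      rw [Finset.mem_powersetCard]
      exact ⟨Finset.subset_univ _, by rw [card_toSet, hk m hm]⟩
    · rw [List.toFinset_card_of_nodup hnd, List.length_map, hlen, Finset.card_powersetCard,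
        Finset.card_univ]
      simp
  ext s
  have h := Finset.ext_iff.mp e s
  simp only [List.mem_toFinset, List.mem_map, Finset.mem_powersetCard, Finset.subset_univ,
    true_and] at h
  exact h.symm

theorem set2_check : (set2List.all fun m => decide (m < 16777216) && (pc m == 2)) = true ∧
    incB set2List = true ∧ set2List.length = 276 := by
  refine ⟨?_, ?_, ?_⟩ <;> decide +kernel

theorem set3_check : (set3List.all fun m => decide (m < 16777216) && (pc m == 3)) = true ∧
    incB set3List = true ∧ set3List.length = 2024 := by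
  refine ⟨?_, ?_, ?_⟩ <;> decide +kernel

theorem set2_lt {m : ℕ} (h : m ∈ set2List) : m < 16777216 ∧ pc m = 2 := by
  have := List.all_eq_true.1 set2_check.1 m h
  simpa using this

theorem set3_lt {m : ℕ} (h : m ∈ set3List) : m < 16777216 ∧ pc m = 3 := by
  have := List.all_eq_true.1 set3_check.1 m h
  simpa using this

theorem set2_eq : {s : Finset GolayPt | s.card = 2} = toSet '' {m | m ∈ set2List} :=
  subsets_eq (fun _ h => (set2_lt h).1) (fun _ h => (set2_lt h).2) set2_check.2.1
    (set2_check.2.2.trans (by decide +kernel))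

theorem set3_eq : {s : Finset GolayPt | s.card = 3} = toSet '' {m | m ∈ set3List} :=
  subsets_eq (fun _ h => (set3_lt h).1) (fun _ h => (set3_lt h).2) set3_check.2.1
    (set3_check.2.2.trans (by decide +kernel))

/-- 2-subsets as one-element systems -/
noncomputable def set2Kind : Kind where
  E := set2List.map fun m => [m]
  Ys := (fun s : Finset GolayPt => ({s} : Finset (Finset GolayPt))) '' {s | s.card = 2}
  ok := kind_single_ok fun _ h => (set2_lt h).1
  mem := kind_single_mem set2_eq
  nodup := kind_single_nodup (fun _ h => (set2_lt h).1)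
    ((pairwise_of_incB set2_check.2.1).imp fun h => ne_of_lt h)
  smul g hg := by
    rintro _ ⟨s, hs, rfl⟩
    exact ⟨g • s, (Finset.card_smul_finset g s).trans hs, (Finset.smul_finset_singleton s).symm⟩

/-- 3-subsets as one-element systems -/
noncomputable def set3Kind : Kind where
  E := set3List.map fun m => [m]
  Ys := (fun s : Finset GolayPt => ({s} : Finset (Finset GolayPt))) '' {s | s.card = 3}
  ok := kind_single_ok fun _ h => (set3_lt h).1
  mem := kind_single_mem set3_eq
  nodup := kind_single_nodup (fun _ h => (set3_lt h).1)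
    ((pairwise_of_incB set3_check.2.1).imp fun h => ne_of_lt h)
  smul g hg := by
    rintro _ ⟨s, hs, rfl⟩
    exact ⟨g • s, (Finset.card_smul_finset g s).trans hs, (Finset.smul_finset_singleton s).symm⟩

/-- any set of at most five points can be moved onto any other of the same size -/
theorem exists_smul_eq_small {k : ℕ} (hk : k ≤ 5) {s t : Finset GolayPt} (hs : s.card = k)
    (ht : t.card = k) : ∃ g ∈ M24, g • s = t := by
  let x : Fin k ↪ GolayPt := (Finset.equivFinOfCardEq hs).symm.toEmbedding.trans
    (Function.Embedding.subtype _)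
  let y : Fin k ↪ GolayPt := (Finset.equivFinOfCardEq ht).symm.toEmbedding.trans
    (Function.Embedding.subtype _)
  obtain ⟨g, hg, h⟩ := exists_map_tuple hk x y
  refine ⟨g, hg, Finset.eq_of_subset_of_card_le ?_ (by rw [Finset.card_smul_finset, hs, ht])⟩
  intro z hz
  obtain ⟨w, hw, rfl⟩ := Finset.mem_smul_finset.1 hz
  have hwx : x (Finset.equivFinOfCardEq hs ⟨w, hw⟩) = w := by simp [x]
  rw [← hwx, Equiv.Perm.smul_def, h]
  exact ((Finset.equivFinOfCardEq ht).symm _).2

/-- the standard triad -/
def triad0 : ℕ := 8388611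

/-- the standard triad together with the octads through it -/
def triadSys : List ℕ := triad0 :: triadOcts

theorem stab_triadSys : MulAction.stabilizer M24 (Sys triadSys) =
    MulAction.stabilizer M24 ({toSet triad0} : Finset (Finset GolayPt)) := by
  have hsame : sameSys (octList.filter fun o => triad0 &&& o == triad0) triadOcts = true := by
    decide +kernel
  have hmem : ∀ o : Finset GolayPt, o ∈ Sys triadOcts ↔ o ∈ octads ∧ toSet triad0 ⊆ o := by
    intro o
    rw [← Sys_eq_of_same hsame]
    simp only [mem_Sys, List.mem_filter, beq_iff_eq]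
    constructor
    · rintro ⟨m, ⟨hm, hm'⟩, rfl⟩
      exact ⟨toSet_mem_octads hm, (toSet_subset_iff (by decide)).2 hm'⟩
    · rintro ⟨ho, hsub⟩
      obtain ⟨m, hm, rfl⟩ := exists_mask_octad ho
      exact ⟨m, ⟨hm, (toSet_subset_iff (by decide)).1 hsub⟩, rfl⟩
  have h3 : (toSet triad0).card = 3 := by decide +kernel
  have hins : Sys triadSys = insert (toSet triad0) (Sys triadOcts) := by
    simp [Sys, triadSys]
  ext g
  simp only [MulAction.mem_stabilizer_iff, Finset.smul_finset_singleton, Finset.singleton_inj,
    hins, Finset.smul_finset_insert]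
  constructor
  · intro h
    have h1 : g • toSet triad0 ∈ insert (toSet triad0) (Sys triadOcts) :=
      h ▸ Finset.mem_insert_self _ _
    rcases Finset.mem_insert.1 h1 with h2 | h2
    · exact h2
    · have := card_octad ((hmem _).1 h2).1
      rw [Finset.card_smul_finset, h3] at this
      omega
  · intro h
    rw [h]
    suffices e : g • Sys triadOcts = Sys triadOcts by exact congrArg _ e
    have hsub : g • Sys triadOcts ⊆ Sys triadOcts := by
      intro o ho
      obtain ⟨o', ho', rfl⟩ := Finset.mem_smul_finset.1 ho
      rw [hmem] at ho' ⊢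
      refine ⟨smul_octad g.2 ho'.1, ?_⟩
      rw [← h]
      exact Finset.smul_finset_subset_smul_finset ho'.2
    exact Finset.eq_of_subset_of_card_le hsub (by rw [Finset.card_smul_finset])

theorem Kind.isCoatom_of_stab (K : Kind) {X : List ℕ} {cls : Cert}
    (h : chkOrbits K.E [X] cls = true) {a : Equiv.Perm GolayPt} (ha : a ∈ M24)
    {S S' : Finset (Finset GolayPt)} (hS : a • Sys X = S')
    (hst : MulAction.stabilizer M24 S' = MulAction.stabilizer M24 S) (hSY : S ∈ K.Ys)
    (htr : ∀ Y ∈ K.Ys, ∀ Y' ∈ K.Ys, ∃ g ∈ M24, g • Y = Y')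
    (h0 : rootOf cls a 0 = S) (hs0 : sizeAt cls 0 = 1) (hlen : 0 < cls.1.length)
    (hnum : coatomOk K.Ys.ncard ((List.range cls.1.length).map (sizeAt cls)) = true)
    (htwo : 1 < K.Ys.ncard) :
    IsCoatom (MulAction.stabilizer M24 S) := by
  classical
  have horbS : MulAction.orbit M24 S = K.Ys := by
    ext Z
    rw [MulAction.mem_orbit_iff]
    constructor
    · rintro ⟨g, rfl⟩; exact K.smul _ g.2 S hSY
    · intro hZ; obtain ⟨g, hg, e⟩ := htr S hSY Z hZ; exact ⟨⟨g, hg⟩, e⟩
  refine ⟨fun htop => ?_, fun H hH => ?_⟩
  · have h1 := MulAction.index_stabilizer M24 S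
    rw [horbS, htop, Subgroup.index_top] at h1
    omega
  · by_contra hne
    set B : Set (Finset (Finset GolayPt)) := MulAction.orbit H S with hB
    have hBsub : B ⊆ K.Ys := by
      rintro _ ⟨g, rfl⟩; exact K.smul _ (g : M24).2 S hSY
    -- B is a union of classes
    have hclosed : ∀ i < cls.1.length, (∃ Z ∈ B,
        Z ∈ MulAction.orbit ↥(MulAction.stabilizer M24 S') (rootOf cls a i)) →
        MulAction.orbit ↥(MulAction.stabilizer M24 S') (rootOf cls a i) ⊆ B := by
      rintro i - ⟨_, ⟨h0', rfl⟩, hZ⟩ W hW
      rw [← MulAction.orbit_eq_iff.2 hZ, MulAction.mem_orbit_iff] at hW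
      obtain ⟨k, rfl⟩ := hW
      exact ⟨⟨(k : M24) * (h0' : M24), mul_mem (hH.le (hst ▸ k.2)) h0'.2⟩, mul_smul (k : M24) (h0' : M24) S⟩
    let I : List ℕ := (List.range cls.1.length).filter fun i => decide (rootOf cls a i ∈ B)
    have hBeq : B = ↑((I.toFinset).biUnion fun i =>
        (Set.toFinite (MulAction.orbit ↥(MulAction.stabilizer M24 S') (rootOf cls a i))).toFinset) := by
      ext W
      simp only [Finset.coe_biUnion, Set.mem_iUnion, Finset.mem_coe, List.mem_toFinset,
        Set.Finite.coe_toFinset, exists_prop, I, List.mem_filter, List.mem_range, decide_eq_true_eq]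
      constructor
      · intro hW
        obtain ⟨i, hi, hWi⟩ := K.cover h ha hS (hBsub hW)
        exact ⟨i, ⟨hi, hclosed i hi ⟨W, hW, hWi⟩ (MulAction.mem_orbit_self _)⟩, hWi⟩
      · rintro ⟨i, ⟨hi, hr⟩, hWi⟩
        exact hclosed i hi ⟨_, hr, MulAction.mem_orbit_self _⟩ hWi
    have hcard : B.ncard = (I.map (sizeAt cls)).sum := by
      rw [hBeq, Set.ncard_coe_finset, Finset.card_biUnion, List.sum_toFinset _
        (List.nodup_range.filter _)]
      · refine congrArg List.sum (List.map_congr_left fun i hi => ?_)
        simp only [I, List.mem_filter, List.mem_range] at hi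
        rw [← Set.ncard_eq_toFinset_card _, (K.orbit_eq h ha hS hi.1).2.2]
      · intro i hi j hj hij
        simp only [I, Finset.mem_coe, List.mem_toFinset, List.mem_filter, List.mem_range] at hi hj
        simp only [Function.onFun, Finset.disjoint_left, Set.Finite.mem_toFinset]
        intro W hWi hWj
        rw [(K.orbit_eq h ha hS hi.1).2.1] at hWi
        rw [(K.orbit_eq h ha hS hj.1).2.1] at hWj
        have e := hWi.2.symm.trans hWj.2
        rw [rootAt, rootAt, List.getD_eq_getElem?_getD, List.getElem?_eq_getElem hi.1, Option.getD_some,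
          List.getD_eq_getElem?_getD, List.getElem?_eq_getElem hj.1, Option.getD_some] at e
        exact hij (((K.cert_spec h).2.2.1.getElem_inj_iff (hi := by simpa using hi.1)
          (hj := by simpa using hj.1)).1 (by simpa using e))
    -- counting
    obtain ⟨t, ht⟩ : B.ncard ∣ K.Ys.ncard := by
      rw [← horbS, ← MulAction.index_stabilizer M24 S]
      have h2 := MulAction.index_stabilizer H S
      rw [← hB] at h2
      refine ⟨H.index, ?_⟩
      rw [← h2, ← Subgroup.relIndex_mul_index hH.le]
      congr 1
    have h0B : rootOf cls a 0 ∈ B := h0 ▸ MulAction.mem_orbit_self S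
    have hI : ∃ l, I = 0 :: l ∧ l.Sublist (List.range cls.1.length).tail := by
      obtain ⟨n, hn⟩ := Nat.exists_eq_succ_of_ne_zero hlen.ne'
      refine ⟨((List.range cls.1.length).tail).filter fun i => decide (rootOf cls a i ∈ B), ?_,
        List.filter_sublist⟩
      simp only [I, hn, List.range_succ_eq_map, List.filter_cons, h0B, decide_true, if_true,
        List.tail_cons]
    obtain ⟨l, hl, hsl⟩ := hI
    rw [hl, List.map_cons, List.sum_cons, hs0] at hcard
    have hmem : l.map (sizeAt cls) ∈ ((List.range cls.1.length).map (sizeAt cls)).tail.sublists := by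
      rw [List.mem_sublists, ← List.map_tail]
      exact hsl.map _
    have hnum' := List.all_eq_true.1 hnum _ hmem
    simp only [Bool.or_eq_true, List.isEmpty_iff, List.map_eq_nil_iff, beq_iff_eq, bne_iff_ne,
      ne_eq] at hnum'
    rcases hnum' with (hnil | hall) | hdiv
    · subst hnil
      simp only [List.map_nil, List.sum_nil, Nat.add_zero] at hcard
      apply hH.not_ge
      intro g hg
      obtain ⟨Z, hZ⟩ := Set.ncard_eq_one.1 hcard
      have h1 : S = Z := by
        have : S ∈ B := MulAction.mem_orbit_self S
        rw [hZ] at this; exact this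
      have h2 : g • S = Z := by
        have : g • S ∈ B := ⟨⟨g, hg⟩, rfl⟩
        rw [hZ] at this; exact this
      exact MulAction.mem_stabilizer_iff.2 (h2.trans h1.symm)
    · apply hne
      have hBY : B = K.Ys := Set.eq_of_subset_of_ncard_le hBsub (by rw [hcard]; omega)
      rw [Subgroup.eq_top_iff']
      intro g
      have : g • S ∈ B := hBY ▸ K.smul _ g.2 S hSY
      obtain ⟨k, hk⟩ := this
      have h3 : (k : M24)⁻¹ * g ∈ MulAction.stabilizer M24 S := by
        rw [MulAction.mem_stabilizer_iff, mul_smul, inv_smul_eq_iff]; exact hk.symm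
      simpa using mul_mem k.2 (hH.le h3)
    · apply hdiv
      rw [ht, hcard, Nat.add_comm 1]
      exact Nat.mul_mod_right _ _

end CfsgLib.Golay
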