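import Cfsg.Agent.Lib.Golay.TwoFusion

/-! Certificate data for the 2-fusion of M11 (computed offline). -/

set_option autoImplicit false
set_option maxRecDepth 100000

namespace CfsgLib.Golay.TwoFusion.M11

noncomputable def es0 : List ℕ := [984818244535754528103549039458486304, 649917612538666832727342486851373184, 235574414548826811735420875188869248, 430298220309603023714987872354902048, 235897784294166671161133261201509408, 850672441043976400844044027014989856, 470863154645330021272092026900390016, 984365217902686453248235801272398976, 850471359967477640029715620848316544, 944171812893421266547626144892749952, 943922561094339879383119455137772576, 649512756628181384222207532266172448, 470721058936465114454329643086783520, 879703298821780370332880796219676704, 879620782690559653928104389500275840, 430562010477298692727714281260754048]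
noncomputable def es : List ℕ := es0

noncomputable def tr1 : Tr := (.node (.node (.node (.node (.node .leaf 235574414548826811735420875188869248 .leaf) 235897784294166671161133261201509408 .leaf) 430298220309603023714987872354902048 (.node .leaf 430562010477298692727714281260754048 .leaf)) 470721058936465114454329643086783520 (.node (.node .leaf 470863154645330021272092026900390016 .leaf) 649512756628181384222207532266172448 (.node .leaf 649917612538666832727342486851373184 .leaf))) 850471359967477640029715620848316544 (.node (.node (.node .leaf 850672441043976400844044027014989856 .leaf) 879620782690559653928104389500275840 (.node .leaf 879703298821780370332880796219676704 .leaf)) 943922561094339879383119455137772576 (.node (.node .leaf 944171812893421266547626144892749952 .leaf) 984365217902686453248235801272398976 (.node .leaf 984818244535754528103549039458486304 .leaf))))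
noncomputable def tree : Tr := tr1
noncomputable def par : List (ℕ × ℕ) := [(0, 0), (1, 0), (1, 1), (0, 2), (1, 2), (0, 3), (1, 3), (1, 4), (0, 5), (1, 6), (0, 7), (1, 8), (1, 9), (1, 10), (1, 11)]

/-- the certificate -/
noncomputable def cert : Cert where
  masks := [340831, 1]
  gs := [649917612538666832727342486851373184, 235574414548826811735420875188869248]
  par := par
  es := es
  tree := tree
  z := 943922561094339879383119455137772576
  steps := [([], 23), ([13262980, 12656663], 19)]
  ff := [13262980, 1302533, 9158944, 11952160, 902657, 9347075, 11100169, 6053905, 15515712]
  chain := [([0], 982053498306117882053864471818186848, 850471359967477640029715620848316544), ([1, 0], 879703298821780370332880796219676704, 984365217902686453248235801272398976), ([1, 2], 851158417637645332395188236285200512, 430298220309603023714987872354902048)]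
  gw := [[1, 0], [3, 1, 0]]

theorem grp_ok : grpOk cert = true := by decide +kernel

theorem nrm_ok : nrmOk cert = true := by decide +kernel

theorem chn_ok : chnOk cert = true := by decide +kernel

end CfsgLib.Golay.TwoFusion.M11
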